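import Cfsg.Agent.H81.QTDefs

/-!
Quasithin programme: the sharpened conclusion for almost simple minimal parabolic groups that the
qrc-lemma uses.
-/

set_option autoImplicit false

namespace Cfsg.Agent.H93.QT

open Cfsg Subgroup Cfsg.Agent.H81.QT

universe u

/-- Sharpened conclusion for `MP`: in the first alternative every 2-subgroup of `Y` that meets
`A ⊓ K` nontrivially lies in `X₀`. -/
def MPConc2 {X : Type*} [Group X] (K X₀ A : Subgroup X) : Prop :=
  (∃ Y : Subgroup X, A ≤ Y ∧ ¬ A ≤ pCoreTwoOf Y ∧ A ⊓ K ≠ ⊥ ∧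
      ∀ S : Subgroup X, IsPGroup 2 S → S ≤ Y → S ⊓ (A ⊓ K) ≠ ⊥ → S ≤ X₀) ∨
    ((∃ g : X, K ≤ A ⊔ A.map (MulAut.conj g).toMonoidHom) ∧ Rk2 K)

/-- The sharpened minimal parabolic statement for the family `P`. -/
def MPFor2 (P : ∀ (S : Type u) [Group S], Prop) : Prop :=
  ∀ (X : Type u) [Group X] [Finite X] (K : Subgroup X) (T : Sylow 2 X) (X₀ A : Subgroup X),
    MP K T X₀ A → P K → MPConc2 K X₀ A

/-- The sharpened minimal parabolic statement for the whole list. -/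
def MPStmt2 : Prop := MPFor2.{u} (fun S _ => OnList S)

theorem MPConc2.conc {X : Type*} [Group X] {K X₀ A : Subgroup X} (h : MPConc2 K X₀ A) :
    MPConc K X₀ A := by
  rcases h with ⟨Y, h1, h2, h3, h4⟩ | h
  · refine Or.inl ⟨Y, h1, h2, fun S hS hA hY => h4 S hS hY ?_⟩
    rwa [inf_eq_right.2 (inf_le_left.trans hA)]
  · exact Or.inr h

theorem MPFor2.mpFor {P : ∀ (S : Type u) [Group S], Prop} (h : MPFor2 P) : MPFor P :=
  fun X _ _ K T X₀ A h1 h2 => (h X K T X₀ A h1 h2).conc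

/-- assembly of the nine families -/
theorem mpStmt2_of (h1 : MPFor2.{u} (fun S _ => IsBenderGroup S)) (h2 : MPFor2.{u} (fun S _ => IsL3E S))
    (h3 : MPFor2.{u} (fun S _ => IsSp4E S)) (h4 : MPFor2.{u} (fun S _ => IsExcE S))
    (h5 : MPFor2.{u} (fun S _ => IsL45 S)) (h6 : MPFor2.{u} (fun S _ => IsAltS S))
    (h7 : MPFor2.{u} (fun S _ => IsL2O S)) (h8 : MPFor2.{u} (fun S _ => IsL3O S))
    (h9 : MPFor2.{u} (fun S _ => IsSporS S)) : MPStmt2.{u} := by
  intro X _ _ K T X₀ A h hK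
  rcases hK with k | k | k | k | k | k | k | k | k
  exacts [h1 X K T X₀ A h k, h2 X K T X₀ A h k, h3 X K T X₀ A h k, h4 X K T X₀ A h k,
    h5 X K T X₀ A h k, h6 X K T X₀ A h k, h7 X K T X₀ A h k, h8 X K T X₀ A h k, h9 X K T X₀ A h k]

end Cfsg.Agent.H93.QT
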