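import Mathlib
import Cfsg.Agent.H93.QrcOut
import Cfsg.Agent.H93.QTMP
import Cfsg.Agent.H81.QTCore
import Cfsg.Agent.H85.PMin3
import Cfsg.Agent.S0205

/-!
The qrc-lemma, the case `V ≰ O₂(H)`: groups with a component.
-/

set_option autoImplicit false

namespace Cfsg.Agent.H93.QR

open Subgroup Cfsg.Agent.H85 Cfsg.Agent.H81.QT Cfsg.Agent.H93.QT
open scoped commutatorElement

universe u

section
variable {G : Type*} [Group G]

/-- the image of `K` modulo `C(K)` -/
noncomputable def quotEquiv (K : Subgroup G) [K.Normal] :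
    (K ⧸ center K) ≃* K.map (QuotientGroup.mk' (centralizer (K : Set G))) :=
  (QuotientGroup.quotientMulEquivOfEq (by
    rw [← MonoidHom.comap_ker, QuotientGroup.ker_mk']
    exact (H52.centralizer_subgroupOf_self K).symm)).trans
  ((QuotientGroup.quotientKerEquivRange
    ((QuotientGroup.mk' (centralizer (K : Set G))).comp K.subtype)).trans
    (MulEquiv.subgroupCongr (by rw [MonoidHom.range_comp, range_subtype])))

theorem rk2_congr {G' : Type*} [Group G'] (e : G ≃* G') (h : Rk2 G) : Rk2 G' := by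
  obtain ⟨p, h1, h2, h3⟩ := h
  exact ⟨p, h1, h2, fun h' => h3 (rank_of_injective e.toMonoidHom e.injective h')⟩

theorem good_map [Finite G] {G' : Type*} [Group G'] [Finite G'] {f : G →* G'}
    (hf : Function.Injective f) {A : Subgroup G} (h : Good A) : Good (A.map f) := by
  obtain ⟨L, S, L₀, x, hP, hAS, h1, h2, h3⟩ := h
  refine ⟨L.map f, S.map f, L₀.map f, f x, hP.map f ?_, map_mono hAS, ?_, ?_, ?_⟩
  · rw [(MonoidHom.ker_eq_bot_iff f).2 hf, inf_bot_eq]; exact bot_le
  · rwa [← map_pCoreOf_of_injective hf, map_le_map_iff_of_injective hf]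
  · rw [← map_resOf, ← map_cj, ← Subgroup.map_sup]; exact map_mono h2
  · rw [← map_pCoreOf_of_injective hf, ← map_inf _ _ _ hf]
    exact le_normalizer_map f (mem_map_of_mem f h3)

/-- the normalizer of a component -/
structure CH1 (T A K : Subgroup G) : Prop where
  syl : IsSyl 2 T ⊤
  qs : IsQuasisimple K
  gen : ⊤ ≤ K ⊔ centralizer (K : Set G) ⊔ T
  O : pCoreOf 2 K = ⊥
  ea : IsElementaryAbelian 2 A
  le : A ≤ T
  nT : T ≤ normalizer (A : Set G)
  nc : ¬ A ≤ centralizer (K : Set G)
  U : ∀ Y : Subgroup G, Y ≤ K → T ≤ normalizer (Y : Set G) → ¬ K ≤ Y → Y ≤ normalizer (A : Set G)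

end

namespace CH1

section
variable {G : Type*} [Group G] [Finite G] {T A K : Subgroup G} [K.Normal]

omit [Finite G] in
theorem not_le (h : CH1 T A K) : ¬ A ≤ pCoreOf 2 (K ⊔ A) := fun h' => h.nc (by
  rw [← commutator_eq_bot_iff_le_centralizer', eq_bot_iff, ← h.O]
  exact (le_inf (commutator_le_left _ _) ((commutator_mono le_rfl h').trans
    (commutator_le_right_of_le_normalizer (le_sup_left.trans (le_normalizer_pCoreOf 2 _))))).trans
    (inf_pCoreOf_le le_sup_left))

theorem small (h : CH1 T A K)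
    (h4 : Nat.card (A.map (QuotientGroup.mk' (centralizer (K : Set G)))) < 4) : Good A := by
  have hA := H53.isPGroup_of_elemAb h.ea
  refine good_of_hyper (A₁ := A ⊓ centralizer (K : Set G)) hA le_sup_right h.not_le inf_le_left ?_
    (sup_le (le_normalizer_of_cent (le_centralizer_comm inf_le_right))
      (H53.le_normalizer_of_le_comm h.ea.1 le_rfl inf_le_left))
  obtain ⟨n, hn⟩ := (hA.map (QuotientGroup.mk' (centralizer (K : Set G)))).exists_card_eq
  have e := relIndex_ker (K := A) (QuotientGroup.mk' (centralizer (K : Set G)))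
  rw [QuotientGroup.ker_mk'] at e
  rw [inf_relIndex_left, e, hn]
  rw [hn] at h4
  have : n < 2 := (Nat.pow_lt_pow_iff_right one_lt_two).1 h4
  interval_cases n <;> simp

omit [Finite G] in
theorem cent (h : CH1 T A K) : centralizer ((K.map (QuotientGroup.mk' (centralizer (K : Set G))) :
    Subgroup _) : Set (G ⧸ centralizer (K : Set G))) = ⊥ := by
  set π := QuotientGroup.mk' (centralizer (K : Set G)) with hπ
  have h1 : ⁅(centralizer ((K.map π : Subgroup _) : Set _)).comap π, K⁆ ≤
      centralizer (K : Set G) := by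
    rw [commutator_le_iff_map_eq_bot, commutator_eq_bot_iff_le_centralizer, map_le_iff_le_comap]
  have h2 := commutator_eq_bot_iff_le_centralizer.1 (H52.commutator_eq_bot_of_perfect
    (H52.IsQuasisimple.commutator_self h.qs) (commutator_eq_bot_iff_le_centralizer.2 h1))
  rw [← map_comap_eq_self_of_surjective (QuotientGroup.mk'_surjective (centralizer (K : Set G)))
    (centralizer _), Subgroup.map_eq_bot_iff, QuotientGroup.ker_mk']
  exact h2

omit [Finite G] in
theorem gen' (h : CH1 T A K) : K.map (QuotientGroup.mk' (centralizer (K : Set G))) ⊔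
    T.map (QuotientGroup.mk' (centralizer (K : Set G))) = ⊤ := by
  have h1 := map_mono (f := QuotientGroup.mk' (centralizer (K : Set G))) h.gen
  rw [map_top_of_surjective _ (QuotientGroup.mk'_surjective _), Subgroup.map_sup, Subgroup.map_sup,
    (Subgroup.map_eq_bot_iff _).2 (QuotientGroup.ker_mk' (centralizer (K : Set G))).ge,
    sup_bot_eq] at h1
  exact top_le_iff.1 h1

omit [Finite G] in
theorem pull (h : CH1 T A K) {Y : Subgroup (G ⧸ centralizer (K : Set G))} (hY : Y ≠ ⊤)
    (hT : T.map (QuotientGroup.mk' (centralizer (K : Set G))) ≤ Y) :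
    K ⊓ Y.comap (QuotientGroup.mk' (centralizer (K : Set G))) ≤ normalizer (A : Set G) :=
  h.U _ inf_le_left (le_normalizer_inf le_normalizer_of_normal
    ((map_le_iff_le_comap.1 hT).trans le_normalizer)) fun h' => hY (top_le_iff.1
      (h.gen'.ge.trans (sup_le (map_le_iff_le_comap.2 (h'.trans inf_le_right)) hT)))

theorem mp (h : CH1 T A K)
    (h4 : 4 ≤ Nat.card (A.map (QuotientGroup.mk' (centralizer (K : Set G))))) :
    ∃ T' : Sylow 2 (G ⧸ centralizer (K : Set G)),
      (T' : Subgroup _) = T.map (QuotientGroup.mk' (centralizer (K : Set G))) ∧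
      MP (K.map (QuotientGroup.mk' (centralizer (K : Set G)))) T'
        (normalizer ((A.map (QuotientGroup.mk' (centralizer (K : Set G))) : Subgroup _) : Set _))
        (A.map (QuotientGroup.mk' (centralizer (K : Set G)))) := by
  set π := QuotientGroup.mk' (centralizer (K : Set G)) with hπdef
  have hπ : Function.Surjective π := QuotientGroup.mk'_surjective _
  have hS := h.syl.map π
  rw [map_top_of_surjective _ hπ] at hS
  haveI hn : (K.map π).Normal := Normal.map inferInstance _ hπ
  haveI := h.qs.2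
  haveI hs : IsSimpleGroup (K.map π) := (quotEquiv K).isSimpleGroup_congr.1 inferInstance
  have hnc : ¬ IsMulCommutative (K.map π) := fun h' =>
    H52.IsQuasisimple.not_isMulCommutative_quotient h.qs ⟨⟨fun a b => (quotEquiv K).injective (by
      rw [map_mul, map_mul]; exact h'.1.1 _ _)⟩⟩
  have hqs := H52.isQuasisimple_of_isSimpleGroup hnc
  have hTA : T.map π ≤ normalizer ((A.map π : Subgroup _) : Set _) :=
    (map_mono h.nT).trans (le_normalizer_map π)
  refine ⟨hS.toSylowTop, rfl, hn, hs, hnc, h.cent, h.gen', fun h' => ?_, fun Y hY hT => ?_,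
    elemAb_map h.ea π, h4, map_mono h.le, le_rfl⟩
  · haveI : (A.map π).Normal := normal_of_top_le_normalizer h'.ge
    have hA := (H53.isPGroup_of_elemAb h.ea).map π
    have h1 : A.map π ⊓ K.map π = ⊥ := by
      rcases H52.IsQuasisimple.eq_or_commutator_eq_bot hqs (inf_le_right : A.map π ⊓ K.map π ≤ _)
        le_normalizer_of_normal with h1 | h1
      · exact absurd (hA.to_le (h1.ge.trans inf_le_left)) (H52.IsQuasisimple.not_isPGroup hqs)
      · exact le_bot_iff.1 ((commutator_eq_bot_iff_le_centralizer.1 h1).trans h.cent.le)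
    have h2 : A.map π = ⊥ := le_bot_iff.1 ((commutator_eq_bot_iff_le_centralizer.1
      (le_bot_iff.1 ((commutator_le_inf _ _).trans h1.le))).trans h.cent.le)
    rw [h2, card_bot] at h4
    omega
  · have h1 : (T.map π ⊔ K.map π) ⊓ Y = T.map π ⊔ (K.map π ⊓ Y) :=
      sup_inf_of_le_normalizer' le_normalizer_of_normal hT
    rw [sup_comm, h.gen', top_inf_eq] at h1
    rw [h1]
    refine sup_le hTA (le_trans ?_ ((map_mono (h.pull hY hT)).trans (le_normalizer_map π)))
    rintro _ ⟨⟨k, hk, rfl⟩, hk'⟩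
    exact ⟨k, ⟨hk, hk'⟩, rfl⟩

theorem alt1 (h : CH1 T A K) {X₀ Y : Subgroup (G ⧸ centralizer (K : Set G))} (hX : X₀ ≠ ⊤)
    (hTX : T.map (QuotientGroup.mk' (centralizer (K : Set G))) ≤ X₀)
    (h1 : A.map (QuotientGroup.mk' (centralizer (K : Set G))) ≤ Y)
    (h2 : ¬ A.map (QuotientGroup.mk' (centralizer (K : Set G))) ≤ pCoreOf 2 Y)
    (h3 : A.map (QuotientGroup.mk' (centralizer (K : Set G))) ⊓
      K.map (QuotientGroup.mk' (centralizer (K : Set G))) ≠ ⊥)
    (h4 : ∀ S : Subgroup (G ⧸ centralizer (K : Set G)), IsPGroup 2 S → S ≤ Y →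
      S ⊓ (A.map (QuotientGroup.mk' (centralizer (K : Set G))) ⊓
        K.map (QuotientGroup.mk' (centralizer (K : Set G)))) ≠ ⊥ → S ≤ X₀) : Good A := by
  set π := QuotientGroup.mk' (centralizer (K : Set G)) with hπdef
  have hπ : Function.Surjective π := QuotientGroup.mk'_surjective _
  have hA := H53.isPGroup_of_elemAb h.ea
  haveI hn : (K.map π).Normal := Normal.map inferInstance _ hπ
  have hp := h.pull hX hTX
  obtain ⟨L', -, -, x', hL', -, -, h5, hx', h6⟩ := out_Z (hA.map π) h1 h2
  have h7 : x' ∈ K.map π := by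
    have e := resOf_sup_of_isPGroup (N := K.map π) (h.syl.isPGroup.map π) le_normalizer_of_normal
    rw [h.gen'] at e
    exact resOf_le 2 _ (e.le (resOf_mono le_top hx'))
  have h8 : L' ≤ (K ⊔ A).map π := by
    rw [Subgroup.map_sup, ← h6]
    exact sup_le le_sup_right (cj_le_of_mem le_sup_right (mem_sup_left h7))
  have h9 : (L'.comap π ⊓ (K ⊔ A)).map π = L' := by
    refine le_antisymm (map_le_iff_le_comap.2 inf_le_left) fun y hy => ?_
    obtain ⟨z, hz, rfl⟩ := h8 hy
    exact ⟨z, ⟨hy, hz⟩, rfl⟩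
  obtain ⟨L, S, L₀, x, hL, hP, hAS, h10, hx, h11⟩ := out_Z (Y := L'.comap π ⊓ (K ⊔ A)) hA
    (le_inf (map_le_iff_le_comap.1 (le_sup_left.trans h6.le)) le_sup_right)
    (fun h' => h5 (((map_mono h').trans (map_pCoreOf_le π _)).trans (by rw [h9])))
  have hRK : resOf 2 L ≤ K := (resOf_mono (hL.trans inf_le_right)).trans
    ((resOf_sup_of_isPGroup hA le_normalizer_of_normal).le.trans (resOf_le 2 K))
  have hxL := resOf_le 2 L hx
  have hAL := hAS.trans hP.syl.le
  set E := ⁅pCoreOf 2 L, resOf 2 L⁆ with hE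
  have hEK : E ≤ K := (commutator_mono le_rfl hRK).trans (commutator_le_right _ _)
  have hEO : E ≤ pCoreOf 2 L :=
    commutator_le_left_of_le_normalizer ((resOf_le 2 L).trans (le_normalizer_pCoreOf 2 L))
  have hLE : L ≤ normalizer (E : Set G) :=
    le_normalizer_commutator (le_normalizer_pCoreOf 2 L) (le_normalizer_resOf 2 L)
  have c1 : ∀ S' : Subgroup G, IsSyl 2 S' L → S'.map π ⊓ (A.map π ⊓ K.map π) ≠ ⊥ →
      S' ≤ X₀.comap π := fun S' hS' h' => map_le_iff_le_comap.1 (h4 _ (hS'.isPGroup.map π)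
        ((map_le_iff_le_comap.2 (hS'.le.trans (hL.trans inf_le_left))).trans hL') h')
  have hSX := c1 S hP.syl (by rwa [inf_eq_right.2 (inf_le_left.trans (map_mono hAS))])
  have hEA : E ≤ normalizer (A : Set G) :=
    (le_inf hEK ((hEO.trans hP.syl.pCoreOf_le).trans hSX)).trans hp
  by_cases h0 : A ⊓ E = ⊥
  · have h12 : A ≤ centralizer (E : Set G) := commutator_eq_bot_iff_le_centralizer.1
      (le_bot_iff.1 ((H52.commutator_le_inf_of_normalizer (hAL.trans hLE) hEA).trans h0.le))
    have h13 : L ≤ centralizer (E : Set G) := h11.ge.trans (sup_le h12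
      (cj_le_of_mem_normalizer h12 (le_normalizer_centralizer hLE hxL)))
    have h14 := le_cent_of_comm_comm (resOf_resOf 2 L) ((pCoreOf_isPGroup 2 L).to_le hEO)
      (commutator_eq_bot_iff_le_centralizer'.2 ((resOf_le 2 L).trans h13))
    exact ⟨L, S, L₀, x, hP, hAS, h10, (resOf_le 2 L).trans h11.ge,
      le_normalizer_of_cent (h14.trans (centralizer_anti inf_le_right)) hx⟩
  · exfalso
    have hS' := hP.syl.cj_of_mem hxL
    have h12 := c1 _ hS' fun h' => h0 (by
      have h12 : (A ⊓ E).map π = ⊥ := le_bot_iff.1 ((le_inf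
        (map_mono (inf_le_right.trans (hEO.trans hS'.pCoreOf_le))) (le_inf (map_mono inf_le_left)
          (map_mono (inf_le_right.trans hEK)))).trans h'.le)
      rw [Subgroup.map_eq_bot_iff, QuotientGroup.ker_mk'] at h12
      exact le_bot_iff.1 ((le_pCoreOf (inf_le_right.trans hEK) (hA.to_le inf_le_left)
        (le_normalizer_of_cent (le_centralizer_comm h12))).trans h.O.le))
    have h13 : L ≤ X₀.comap π := h11.ge.trans (sup_le (hAS.trans hSX) ((cj_mono x hAS).trans h12))
    rw [cj_eq_of_mem_normalizer (hp ⟨hRK hx, h13 hxL⟩), sup_idem] at h11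
    exact h10 (by rw [← h11, pCoreOf_eq_self hA])

end

theorem main {G : Type u} [Group G] [Finite G] {T A K : Subgroup G} [K.Normal] (h : CH1 T A K)
    (hmp : MPStmt2.{u}) (hl : OnList (K ⧸ center K)) :
    Good A ∨ ((∃ x, K ≤ A ⊔ cj x A ⊔ centralizer (K : Set G)) ∧ Rk2 (K ⧸ center K)) := by
  rcases lt_or_ge (Nat.card (A.map (QuotientGroup.mk' (centralizer (K : Set G))))) 4 with h4 | h4
  · exact Or.inl (h.small h4)
  obtain ⟨T', hT', hM⟩ := h.mp h4
  rcases hmp _ _ _ _ _ hM (onList_congr (quotEquiv K) hl) with ⟨Y, h1, h2, h3, h5⟩ | ⟨⟨g, hg⟩, hr⟩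
  · exact Or.inl (h.alt1 hM.ne_top ((map_mono h.nT).trans (le_normalizer_map _)) h1 h2 h3 h5)
  · obtain ⟨x, rfl⟩ := QuotientGroup.mk'_surjective _ g
    refine Or.inr ⟨⟨x, ?_⟩, rk2_congr (quotEquiv K).symm hr⟩
    refine (map_le_map_iff.1 ?_).trans (sup_le_sup_left (QuotientGroup.ker_mk' _).le _)
    rw [Subgroup.map_sup, map_cj]
    exact hg

end CH1

end Cfsg.Agent.H93.QR
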