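import Mathlib
import Cfsg.Agent.H93.QrcOut2

/-!
The qrc-lemma, the case `V ≰ O₂(H)`.
-/

set_option autoImplicit false

namespace Cfsg.Agent.H93.QR

open Subgroup Cfsg.Agent.H85 Cfsg.Agent.H81.QT Cfsg.Agent.H93.QT
open scoped commutatorElement

universe u

section
variable {G : Type*} [Group G] [Finite G]

theorem burnside_bot {p : ℕ} [Fact p.Prime] {K S : Subgroup G} (hK : resOf p K = K)
    (hS : IsSyl p S K) (h : K ⊓ normalizer (S : Set G) ≤ centralizer (S : Set G)) : S = ⊥ := by
  have hP : normalizer ((hS.toSylow : Subgroup K) : Set K) ≤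
      centralizer ((hS.toSylow : Subgroup K) : Set K) := fun g hg => by
    have h1 := le_normalizer_map K.subtype (mem_map_of_mem _ hg)
    rw [hS.map_toSylow] at h1
    rw [hS.coe_toSylow, centralizer_subgroupOf hS.le]
    exact h ⟨g.2, h1⟩
  have hc := MonoidHom.ker_transferSylow_isComplement' hS.toSylow hP
  have h1 : pResidual p K = ⊤ := map_injective K.subtype_injective
    (hK.trans (by rw [← MonoidHom.range_eq_map, range_subtype]))
  have h2 : resOf p (⊤ : Subgroup K) ≤ (MonoidHom.transferSylow hS.toSylow hP).ker :=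
    resOf_le_of_pquot fun x _ => by
      obtain ⟨k, hk⟩ := hS.toSylow.2 (MonoidHom.transferSylow hS.toSylow hP x)
      exact ⟨k, by rw [MonoidHom.mem_ker, map_pow, hk]⟩
  rw [resOf_top, h1] at h2
  rw [← hS.map_toSylow, hc.disjoint.eq_bot_of_ge (le_top.trans h2), Subgroup.map_bot]

/-- a minimal parabolic group with `O₂ = 1` and a component -/
structure CH (T M A K : Subgroup G) : Prop where
  pm : PMin 2 T M ⊤
  O : pCore 2 G = ⊥
  sq : IsStronglyQuasithin G
  ea : IsElementaryAbelian 2 A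
  ne : A ≠ ⊥
  le : A ≤ T
  nm : M ≤ normalizer (A : Set G)
  comp : IsComponent K

namespace CH

variable {T M A K : Subgroup G}

theorem res_le (h : CH T M A K) {Y : Subgroup G} (hY : Y ≤ K)
    (hn : T ⊓ normalizer (K : Set G) ≤ normalizer (Y : Set G)) (h0 : ¬ Y ≤ M) :
    pResidual 2 G ≤ Y ⊔ centralizer (K : Set G) := by
  refine ((resOf_top 2).ge.trans (h.pm.resOf_le_of_invariant le_top (le_normalizer_iSup_cj T Y)
    fun h' => h0 ((le_iSup_cj T Y).trans h'))).trans (iSup_le fun s => ?_)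
  rcases H52.IsComponent.mem_normalizer_or_commutator_conj_eq_bot h.comp (s : G) with h1 | h1
  · rw [cj_eq_of_mem_normalizer (hn ⟨s.2, h1⟩)]; exact le_sup_left
  · exact ((cj_mono _ hY).trans (commutator_eq_bot_iff_le_centralizer'.1 h1)).trans le_sup_right

theorem U (h : CH T M A K) {Y : Subgroup G} (hY : Y ≤ K)
    (hn : T ⊓ normalizer (K : Set G) ≤ normalizer (Y : Set G)) (h0 : ¬ K ≤ Y) : Y ≤ M := by
  by_contra h1
  exact h0 (le_of_le_sup_centralizer (H52.IsComponent.commutator_self h.comp) hY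
    ((le_pResidual_of_isQuasisimple h.comp.2).trans (h.res_le hY hn h1)))

theorem res_le' (h : CH T M A K) : pResidual 2 G ≤ K ⊔ centralizer (K : Set G) :=
  h.res_le le_rfl inf_le_right (h.pm.component_not_le h.O h.comp)

theorem nc (h : CH T M A K) : ¬ A ≤ centralizer (K : Set G) := fun h' => by
  have hT := h.pm.uniq.le.trans h.nm
  have h1 := h.pm.resOf_le_of_invariant le_top (le_normalizer_centralizer hT)
    fun h1 => h.pm.component_not_le h.O h.comp ((le_centralizer_comm h').trans h1)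
  haveI : A.Normal := normal_of_top_le_normalizer
    (h.pm.syl.resOf_sup.ge.trans (sup_le (le_normalizer_of_cent h1) hT))
  exact h.ne (le_bot_iff.1 ((le_pCore (H53.isPGroup_of_elemAb h.ea)).trans h.O.le))

theorem normN (h : CH T M A K) : (normalizer (K : Set G)).Normal := by
  by_cases hn : K.Normal
  · rw [normalizer_eq_top]; infer_instance
  · exact normal_of_index_eq_two (component_index h.sq h.comp hn)

theorem sylN (h : CH T M A K) : IsSyl 2 (T ⊓ normalizer (K : Set G)) (normalizer (K : Set G)) := by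
  haveI := h.normN
  exact h.pm.syl.inf_of_le_normalizer le_top le_normalizer_of_normal

theorem sylK (h : CH T M A K) : IsSyl 2 (T ⊓ K) K := by
  have := h.sylN.inf_of_le_normalizer le_normalizer le_rfl
  rwa [inf_assoc, inf_eq_right.2 (le_normalizer : K ≤ _)] at this

theorem OK (h : CH T M A K) : pCoreOf 2 K = ⊥ :=
  le_bot_iff.1 ((H1.le_pCore_of_isSubnormal ((H1.SnIn.of_normal (pCoreOf_le 2 K)
    (le_normalizer_pCoreOf 2 K)).trans (H1.SnIn.of_isSubnormal h.comp.1)).isSubnormal
    (pCoreOf_isPGroup 2 K)).trans h.O.le)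

theorem A_norm (h : CH T M A K) : A ≤ normalizer (K : Set G) := by
  intro a ha
  refine (H52.IsComponent.mem_normalizer_or_commutator_conj_eq_bot h.comp a).resolve_right
    fun h1 => ?_
  have h1' : cj a K ≤ centralizer (K : Set G) := commutator_eq_bot_iff_le_centralizer'.1 h1
  have hn : ¬ K.Normal := fun hn => H52.IsComponent.not_le_centralizer h.comp
    ((cj_normal a K).ge.trans h1')
  have hZ : K ⊓ centralizer (K : Set G) = ⊥ := by
    rw [← H52.map_center_subtype, component_simple h.sq h.O h.comp hn, Subgroup.map_bot]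
  have h2 : ∀ k ∈ M ⊓ K, k ^ 2 = 1 := by
    intro k hk
    have h2 : k * a * k⁻¹ * a⁻¹ ∈ A :=
      A.mul_mem ((mem_normalizer_iff.1 (h.nm hk.1) a).1 ha) (A.inv_mem ha)
    have h3 : a * k⁻¹ * a⁻¹ ∈ centralizer (K : Set G) := h1' (conj_mem_cj (K.inv_mem hk.2))
    have h4 := h.ea.2 _ h2
    have h5 : Commute k (a * k⁻¹ * a⁻¹) := h3 k hk.2
    rw [show k * a * k⁻¹ * a⁻¹ = k * (a * k⁻¹ * a⁻¹) by group, h5.mul_pow,
      mul_eq_one_iff_eq_inv] at h4
    exact mem_bot.1 (hZ.le ⟨K.pow_mem hk.2 2, by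
      rw [h4]; exact (centralizer (K : Set G)).inv_mem ((centralizer (K : Set G)).pow_mem h3 2)⟩)
  have h3 : M ⊓ K = T ⊓ K := h.sylK.eq_of_le (fun x => ⟨1, Subtype.ext (h2 x x.2)⟩)
    (inf_le_inf_right K h.pm.uniq.le) inf_le_right
  have h4 : T ⊓ K ≠ ⊥ := fun h' => by
    have h4 := h.sylK
    rw [h'] at h4
    exact H52.IsQuasisimple.not_isSolvable h.comp.2
      (S0205.result (Nat.coprime_two_right.1 h4.coprime_of_eq_bot))
  have h5 : K ⊓ normalizer ((T ⊓ K : Subgroup G) : Set G) ≤ M := h.U inf_le_left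
    (le_normalizer_inf inf_le_right ((le_normalizer_inf (inf_le_left.trans le_normalizer)
      inf_le_right).trans (normalizer_le_normalizer_normalizer _)))
    fun h' => h4 (le_bot_iff.1 ((le_pCoreOf inf_le_right h.sylK.isPGroup
      (h'.trans inf_le_right)).trans h.OK.le))
  refine h4 (burnside_bot (resOf_eq_self_of_isQuasisimple h.comp.2) h.sylK fun x hx y hy => ?_)
  have hx' : x ∈ M ⊓ K := ⟨h5 hx, hx.1⟩
  have hy' : y ∈ M ⊓ K := h3.ge hy
  have e : ∀ z ∈ M ⊓ K, z⁻¹ = z := fun z hz => inv_eq_of_mul_eq_one_right (by rw [← pow_two, h2 z hz])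
  rw [← e _ (mul_mem hy' hx'), mul_inv_rev, e x hx', e y hy']

theorem ch1 (h : CH T M A K) : CH1 ((T ⊓ normalizer (K : Set G)).subgroupOf (normalizer (K : Set G)))
    (A.subgroupOf (normalizer (K : Set G))) (K.subgroupOf (normalizer (K : Set G))) := by
  set N := normalizer (K : Set G) with hN
  have hKN : K ≤ N := le_normalizer
  have hi := N.subtype_injective
  have e : ∀ {X : Subgroup G}, X ≤ N → (X.subgroupOf N).map N.subtype = X :=
    fun h' => map_subgroupOf_eq_of_le h'
  refine ⟨?_, (H52.isQuasisimple_subgroupOf_iff hKN).2 h.comp.2, ?_, ?_, ?_,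
    comap_mono (le_inf h.le h.A_norm), ?_, ?_, fun Y h1 h2 h3 => ?_⟩
  · have := h.sylN.subgroupOf le_rfl
    rwa [subgroupOf_self] at this
  · rw [centralizer_subgroupOf hKN, ← map_le_map_iff_of_injective hi, Subgroup.map_sup,
      Subgroup.map_sup, e hKN, e (centralizer_le_normalizer _), e inf_le_right,
      ← MonoidHom.range_eq_map, range_subtype]
    exact h.sylN.resOf_sup.ge.trans (sup_le_sup_right ((resOf_le_pResidual _).trans h.res_le') _)
  · rw [← map_eq_bot_iff_of_injective _ hi, pCoreOf_subgroupOf_map hKN, h.OK]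
  · exact elemAb_subgroupOf h.ea N
  · rw [← H53.map_le_normalizer_map_iff hi, e inf_le_right, e h.A_norm]
    exact inf_le_left.trans (h.pm.uniq.le.trans h.nm)
  · rw [le_centralizer_subgroupOf_iff h.A_norm hKN]; exact h.nc
  · rw [← H53.map_le_normalizer_map_iff hi, e h.A_norm]
    rw [← H53.map_le_normalizer_map_iff hi, e inf_le_right] at h2
    rw [← map_le_map_iff_of_injective hi, e hKN] at h1 h3
    exact (h.U h1 h2 h3).trans h.nm

theorem good_of_normal (h : CH T M A K) [K.Normal] {x : G}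
    (hx : K ≤ A ⊔ cj x A ⊔ centralizer (K : Set G)) : Good A := by
  have hKM := h.pm.component_not_le h.O h.comp
  have h1 : resOf 2 ⊤ ≤ K := h.pm.resOf_le_of_not_le le_top le_normalizer_of_normal hKM
  have h2 : T ⊓ centralizer (K : Set G) = ⊥ := le_bot_iff.1 ((pmin_inf_le h.pm fun h' =>
    H52.IsComponent.not_le_centralizer h.comp
      ((le_pResidual_of_isQuasisimple h.comp.2).trans h')).trans h.O.le)
  have h3 := h.pm.syl.inf_of_le_normalizer (N := centralizer (K : Set G)) le_top
    le_normalizer_of_normal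
  rw [h2] at h3
  have h4 : centralizer (K : Set G) ≤ K := (le_resOf_of_coprime le_top h3.coprime_of_eq_bot).trans h1
  have h5 := sup_inf_of_le_normalizer (B := A ⊔ cj x A) le_normalizer_of_normal h4
  have h6 : K ≤ (A ⊔ cj x A) ⊓ K := le_of_le_sup_centralizer
    (H52.IsComponent.commutator_self h.comp) inf_le_right (by
      rw [sup_comm, ← h5, sup_comm]; exact le_inf hx le_rfl)
  refine ⟨⊤, T, M, x, h.pm, h.le, ?_, h1.trans (h6.trans inf_le_left), ?_⟩
  · rw [pCoreOf_top, h.O, le_bot_iff]; exact h.ne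
  · rw [pCoreOf_top, h.O, inf_bot_eq]; exact le_normalizer_of_normal (mem_top x)

end CH

end

theorem CH.good {G : Type u} [Group G] [Finite G] {T M A K : Subgroup G} (h : CH T M A K)
    (hl : ListStmt.{u}) (hmp : MPStmt2.{u}) (hs : SQTK G) : Good A := by
  have h1 := h.ch1
  set N := normalizer (K : Set G) with hN
  have hKN : K ≤ N := le_normalizer
  have e : ∀ {X : Subgroup G}, X ≤ N → (X.subgroupOf N).map N.subtype = X :=
    fun h' => map_subgroupOf_eq_of_le h'
  rcases h1.main hmp ((hs.sub N).onList hl h1.qs) with h2 | ⟨⟨x, hx⟩, hr⟩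
  · have := good_map N.subtype_injective h2
    rwa [e h.A_norm] at this
  · by_cases hn : K.Normal
    · refine h.good_of_normal (x := x) ?_
      have := map_mono (f := N.subtype) hx
      rwa [centralizer_subgroupOf hKN, Subgroup.map_sup, Subgroup.map_sup, map_subtype_cj, e hKN,
        e h.A_norm, e (centralizer_le_normalizer _)] at this
    · exfalso
      have hZ : center (K.subgroupOf N) = ⊥ := by
        have h2 : K ⊓ centralizer (K : Set G) = ⊥ := by
          rw [← H52.map_center_subtype, component_simple h.sq h.O h.comp hn, Subgroup.map_bot]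
        rw [← map_eq_bot_iff_of_injective _ (subtype_injective _), H52.map_center_subtype,
          centralizer_subgroupOf hKN, eq_bot_iff]
        exact fun z hz => mem_bot.2 (Subtype.ext (mem_bot.1 (h2.le hz)))
      obtain ⟨p, hp, h2, h3⟩ := rk2_congr (((QuotientGroup.quotientMulEquivOfEq hZ).trans
        QuotientGroup.quotientBot).trans (subgroupOfEquivOfLe hKN)) hr
      exact h3 (component_rank_one h.sq h.comp hn hp h2)

theorem good_of {G : Type u} [Group G] [Finite G] (hl : ListStmt.{u}) (hmp : MPStmt2.{u})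
    (hs : SQTK G) {T M A : Subgroup G} (h : PMin 2 T M ⊤) (hO : pCore 2 G = ⊥)
    (hA : IsElementaryAbelian 2 A) (h0 : A ≠ ⊥) (hAT : A ≤ T) (hn : M ≤ normalizer (A : Set G)) :
    Good A := by
  by_cases hE : layer G = ⊥
  · refine good_of_fitting hO hA fun h' => h0 (le_bot_iff.1 ((H3.le_pCore_of_le_fitting
      (H53.isPGroup_of_elemAb hA) (h'.trans (H52.centralizer_fitting_le_iff.2 hE))).trans hO.le))
  · obtain ⟨K, hK⟩ := H52.layer_ne_bot_iff.1 hE
    exact CH.good ⟨h, hO, hs.sqt, hA, h0, hAT, hn, hK⟩ hl hmp hs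

theorem Hyp.le_core {G : Type*} [Group G] [Finite G] {T M V D : Subgroup G} (h : Hyp T M V D) :
    V ≤ pCoreOf 2 M := by
  have hTM := h.pm.uniq.le
  have hOT : pCoreOf 2 M ≤ T := (h.pm.syl.of_le hTM le_top).pCoreOf_le
  have hQO : pCore 2 G ≤ pCoreOf 2 M :=
    le_pCoreOf (h.QT.trans hTM) (pCore_isPGroup 2 G) le_normalizer_of_normal
  set C := D ⊓ centralizer ((pCoreOf 2 M ⊓ D : Subgroup G) : Set G) with hC
  have hn : M ≤ normalizer (C : Set G) := le_normalizer_inf h.dn
    (le_normalizer_centralizer (le_normalizer_inf (le_normalizer_pCoreOf 2 M) h.dn))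
  have h1 : resOf 2 C ≤ D := (resOf_le 2 C).trans inf_le_left
  have h2 : ⁅pCoreOf 2 M, resOf 2 C⁆ ≤ pCoreOf 2 M ⊓ D := le_inf
    (commutator_le_left_of_le_normalizer ((h1.trans h.dM).trans (le_normalizer_pCoreOf 2 M)))
    ((commutator_mono le_rfl h1).trans
      (commutator_le_right_of_le_normalizer ((pCoreOf_le 2 M).trans h.dn)))
  have h3 := le_cent_of_comm_comm (resOf_resOf 2 C)
    ((pCoreOf_isPGroup 2 M).to_le (h2.trans inf_le_left))
    (commutator_eq_bot_iff_le_centralizer'.2
      (((resOf_le 2 C).trans inf_le_right).trans (centralizer_anti h2)))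
  have h4 : IsPGroup 2 C := by
    rw [← resOf_eq_bot_iff, ← resOf_resOf, resOf_eq_bot_iff]
    exact (pCore_isPGroup 2 G).to_le ((h3.trans (centralizer_anti hQO)).trans h.ch)
  refine le_trans (le_inf ?_ ?_) (le_pCoreOf (inf_le_left.trans h.dM) h4 hn)
  · exact ((le_inf h.le (H53.le_centralizer_of_le_comm h.ea.1 le_rfl le_rfl)).trans h.dT.ge).trans
      inf_le_right
  · exact le_centralizer_comm (((inf_le_inf_right D hOT).trans h.dT.le).trans inf_le_right)

theorem Hyp.out_case {G : Type u} [Group G] [Finite G] (hl : ListStmt.{u}) (hmp : MPStmt2.{u})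
    (hs : SQTK G) {T M V D : Subgroup G} (h : Hyp T M V D) (hVQ : ¬ V ≤ pCore 2 G) :
    CubicParamLE T V 2 := by
  have hTM := h.pm.uniq.le
  have hOT : pCoreOf 2 M ≤ T := (h.pm.syl.of_le hTM le_top).pCoreOf_le
  have hO : pCoreOf 2 M ⊓ D = pCoreOf 2 M ⊓ centralizer (V : Set G) := by
    rw [← inf_eq_left.2 hOT, inf_assoc, inf_assoc, h.dT]
  have hn := le_normalizer_inf (le_normalizer_pCoreOf 2 M) h.dn
  have hO' : ∀ m ∈ M, pCoreOf 2 M ⊓ D ≤ centralizer ((cj m V : Subgroup G) : Set G) := fun m hm => by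
    rw [← cj_centralizer, ← cj_eq_of_mem_normalizer (hn hm)]
    exact cj_mono m (hO.le.trans inf_le_right)
  have hm : ∀ m : M, cj (m : G) V ≤ pCoreOf 2 M ⊓ D := fun m => cj_le_of_mem_normalizer
    ((le_inf h.le_core (H53.le_centralizer_of_le_comm h.ea.1 le_rfl le_rfl)).trans hO.ge) (hn m.2)
  set W := ⨆ m : M, cj (m : G) V with hWdef
  have hW : IsElementaryAbelian 2 W := H53.elemAb_iSup (fun m => (elemAb_cj h.ea m).2) fun m m' =>
    (hm m).trans (hO' m' m'.2)
  have hMW : M ≤ normalizer (W : Set G) := le_normalizer_iSup_cj M V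
  have hVW : V ≤ W := le_iSup_cj M V
  have hWO : W ≤ pCoreOf 2 M := iSup_le fun m => (hm m).trans inf_le_left
  have hQM : pCore 2 G ≤ M := h.QT.trans hTM
  have hQO : pCore 2 G ≤ pCoreOf 2 M :=
    le_pCoreOf hQM (pCore_isPGroup 2 G) le_normalizer_of_normal
  obtain ⟨B, h1, h2, h3, h4, h5⟩ := cubic_of_good h.ch hW (hQM.trans hMW)
    (good_of hl hmp hs.quot (pmin_quot h.pm hQM) (H3.pCore_quotient_pCore 2 G) (elemAb_map hW _)
      (fun h' => hVQ (hVW.trans (((Subgroup.map_eq_bot_iff _).1 h').trans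
        (QuotientGroup.ker_mk' _).le))) (map_mono (hWO.trans hOT))
      ((map_mono hMW).trans (le_normalizer_map _)))
  have hBO : B ≤ pCoreOf 2 M := h1.trans (sup_le hWO hQO)
  have h6 : centralizer (V : Set G) ⊓ B ≤ centralizer (W : Set G) := by
    rw [hWdef, H53.centralizer_iSup']
    exact le_iInf fun m => ((le_inf (inf_le_right.trans hBO) inf_le_left).trans hO.ge).trans
      (hO' m m.2)
  refine ⟨B, hBO.trans hOT, ⟨fun h' => h3 ((le_inf h' le_rfl).trans h6), fun b hb => ?_,
    fun b hb b' hb' => ?_⟩, le_bot_iff.1 (h4 ▸ commutator_mono (commutator_mono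
      (commutator_mono hVW le_rfl) le_rfl) le_rfl), ?_⟩
  · rw [h2.2 b hb]; exact one_mem _
  · have : b * b' = b' * b := congrArg Subtype.val (h2.1.1.1 ⟨b, hb⟩ ⟨b', hb'⟩)
    rw [this, mul_inv_cancel_right, mul_inv_cancel]; exact one_mem _
  · rw [inf_relIndex_left]
    refine ((H53.relIndex_mono_right _ hVW).trans h5).trans (Nat.pow_le_pow_left ?_ 2)
    rw [← inf_relIndex_right (centralizer (V : Set G))]
    exact H53.relIndex_anti_left h6 B

end Cfsg.Agent.H93.QR
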