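import Mathlib
import Cfsg.Agent.H93.QrcOut3
import Cfsg.Agent.H81.QTXi
import Cfsg.Agent.S1823

/-!
The qrc-lemma for simple QTKE-groups.
-/

set_option autoImplicit false

namespace Cfsg.Agent.H93.QR

open Subgroup Cfsg.Agent.H85 Cfsg.Agent.H81.QT Cfsg.Agent.H93.QT
open scoped commutatorElement

universe u

section
variable {G : Type*} [Group G] {G' : Type*} [Group G']

theorem induces_map {f : G →* G'} (hf : Function.Injective f) {B V : Subgroup G}
    (h : InducesElemAbelianTwoGroupOn B V) : InducesElemAbelianTwoGroupOn (B.map f) (V.map f) := by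
  have e : ∀ x, x ∈ centralizer (V : Set G) → f x ∈ centralizer ((V.map f : Subgroup G') : Set G') := by
    rintro x hx _ ⟨v, hv, rfl⟩
    rw [← map_mul, ← map_mul, hx v hv]
  refine ⟨fun h' => h.1 ((H53.map_le_centralizer_map_iff hf).1 h'), ?_, ?_⟩
  · rintro _ ⟨b, hb, rfl⟩
    rw [← map_pow]; exact e _ (h.2.1 b hb)
  · rintro _ ⟨b, hb, rfl⟩ _ ⟨b', hb', rfl⟩
    simpa only [map_mul, map_inv] using e _ (h.2.2 b hb b' hb')

theorem quad_map {f : G →* G'} (hf : Function.Injective f) {X V : Subgroup G} {r : ℕ}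
    (h : QuadParamLE X V r) : QuadParamLE (X.map f) (V.map f) r := by
  obtain ⟨B, h1, h2, h3, h4⟩ := h
  refine ⟨B.map f, map_mono h1, induces_map hf h2, ?_, ?_⟩
  · rw [← map_commutator, ← map_commutator, h3, Subgroup.map_bot]
  · rw [inf_relIndex_left] at h4 ⊢
    rwa [H53.relIndex_centralizer_map hf, H53.relIndex_centralizer_map hf]

theorem cubic_map {f : G →* G'} (hf : Function.Injective f) {X V : Subgroup G} {r : ℕ}
    (h : CubicParamLE X V r) : CubicParamLE (X.map f) (V.map f) r := by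
  obtain ⟨B, h1, h2, h3, h4⟩ := h
  refine ⟨B.map f, map_mono h1, induces_map hf h2, ?_, ?_⟩
  · rw [← map_commutator, ← map_commutator, ← map_commutator, h3, Subgroup.map_bot]
  · rw [inf_relIndex_left] at h4 ⊢
    rwa [H53.relIndex_centralizer_map hf, H53.relIndex_centralizer_map hf]

theorem quad_mono {X Y V : Subgroup G} {r : ℕ} (h : QuadParamLE X V r) (hXY : X ≤ Y) :
    QuadParamLE Y V r :=
  let ⟨B, h1, h2⟩ := h; ⟨B, h1.trans hXY, h2⟩

theorem cubic_mono {X Y V : Subgroup G} {r : ℕ} (h : CubicParamLE X V r) (hXY : X ≤ Y) :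
    CubicParamLE Y V r :=
  let ⟨B, h1, h2⟩ := h; ⟨B, h1.trans hXY, h2⟩

theorem uniqMax_of_calHMin {T M H : Subgroup G} (hT : IsSyl 2 T H) (hTM : T ≤ M)
    (hH : H ∈ calHMin T M) : UniqMax T (H ⊓ M) H := by
  refine ⟨le_inf hT.le hTM, lt_of_le_of_ne inf_le_left fun h' => hH.1.2 (h'.ge.trans inf_le_right),
    fun K h1 h2 => le_inf h2.le ?_⟩
  by_contra h3
  refine h2.ne (hH.2 K ⟨⟨fun h4 => hH.1.1.1 ?_, h1⟩, h3⟩ h2.le)
  have h5 : pCoreOf 2 H ≤ pCoreOf 2 K :=
    (le_inf (hT.pCoreOf_le.trans h1) le_rfl).trans (inf_pCoreOf_le h2.le)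
  rw [pCoreOf, pCoreOf, h4, Subgroup.map_bot, le_bot_iff,
    map_eq_bot_iff_of_injective _ H.subtype_injective] at h5
  exact h5

end

/-- The qrc-lemma: `D` is a normal subgroup of the maximal subgroup `H₀` of `H` with Sylow
2-subgroup `C_T(V)`. -/
theorem qrc {G : Type u} [Group G] [Finite G] [IsSimpleGroup G] (hl : ListStmt.{u})
    (hmp : MPStmt2.{u}) (hG : ¬ IsMulCommutative G) (hQ : IsQTKE G) (T : Sylow 2 G)
    {M₀ H H₀ V D : Subgroup G} (hTM₀ : (T : Subgroup G) ≤ M₀) (hH : H ∈ calHOver (T : Subgroup G))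
    (hU : UniqMax (T : Subgroup G) H₀ H) (hV : IsElementaryAbelian 2 V) (hVM : V ≤ M₀)
    (hn : M₀ ≤ normalizer (V : Set G))
    (hR : pCoreOf 2 M₀ = (T : Subgroup G) ⊓ centralizer (V : Set G)) (hD : D ≤ H₀)
    (hDn : H₀ ≤ normalizer (D : Set G))
    (hDT : (T : Subgroup G) ⊓ D = (T : Subgroup G) ⊓ centralizer (V : Set G)) :
    (∃ R₀ : Subgroup G, R₀ ≠ ⊥ ∧ R₀ ≤ pCoreOf 2 M₀ ∧ M₀ ⊔ H ≤ normalizer (R₀ : Set G)) ∨
      (¬ V ≤ pCoreOf 2 H ∧ CubicParamLE (T : Subgroup G) V 2) ∨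
      QuadParamLE (T : Subgroup G) V 2 := by
  by_contra! h0
  obtain ⟨h1, h2, h3⟩ := h0
  have hTH := hH.2
  have hS : IsSyl 2 (T : Subgroup G) H := isSyl_of_sylow_le T hTH
  have hVR : V ≤ pCoreOf 2 M₀ := le_pCoreOf hVM (H53.isPGroup_of_elemAb hV) hn
  have hRT : pCoreOf 2 M₀ ≤ T := hR.le.trans inf_le_left
  have hVT := hVR.trans hRT
  have hT0 : (T : Subgroup G) ≠ ⊥ := fun h' => hH.1 ((map_eq_bot_iff_of_injective _
    H.subtype_injective).1 (le_bot_iff.1 (hS.pCoreOf_le.trans h'.le)))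
  have hR0 : pCoreOf 2 M₀ ≠ ⊥ := fun h' => inf_centralizer_ne_bot T.isPGroup' hT0
    (le_bot_iff.1 (((inf_le_inf_left _ (centralizer_anti hVT)).trans hR.ge).trans h'.le))
  have hRM := le_normalizer_pCoreOf 2 M₀
  have h4 : ¬ (T : Subgroup G) ⊓ resOf 2 H ≤ centralizer (V : Set G) := fun h' => by
    have h4 : H ≤ normalizer ((resOf 2 H ⊔ pCoreOf 2 M₀ : Subgroup G) : Set G) :=
      hS.resOf_sup.ge.trans (sup_le (le_sup_left.trans le_normalizer)
        (le_normalizer_sup (hTH.trans (le_normalizer_resOf 2 H)) (hTM₀.trans hRM)))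
    have h5 := hS.inf_of_le_normalizer (sup_le (resOf_le 2 H) (hRT.trans hTH)) h4
    rw [inf_comm, sup_comm, sup_inf_of_le_normalizer' ((hRT.trans hTH).trans
      (le_normalizer_resOf 2 H)) hRT, sup_eq_left.2 ((le_inf inf_le_right
        ((inf_comm _ _).le.trans h')).trans hR.ge), sup_comm,
      ← show oddGenerated H = resOf 2 H from oddGenerated_eq H] at h5
    obtain ⟨R₀, h6, h7, h8⟩ := S1823.result hG hQ T M₀ H ⟨fun h6 => hR0 (by
      rw [pCoreOf, h6, Subgroup.map_bot]), hTM₀⟩ hH (exists_uniqMax_top_iff.1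
        ⟨_, (uniqMax_subgroupOf_iff hTH hU.lt.le).2 hU⟩) _ hR0 hRT ⟨h5.toSylow, rfl⟩ hRM
    exact h1 R₀ h6 h7 h8
  have hV0 : V ≠ ⊥ := fun h' => h4 (by rw [h', H53.centralizer_bot']; exact le_top)
  have hJ : thompsonSubgroupOf 2 (T : Subgroup G) ≤ pCoreOf 2 M₀ :=
    (le_inf (H51.thompsonSubgroupOf_le 2 _) (H51.thompsonSubgroupOf_le_iff.2 fun A hA =>
      maxEA_le_cent T.isPGroup' hV hVT (hTM₀.trans hn) h3 hA)).trans hR.ge
  have hJ' : ¬ H ≤ normalizer ((thompsonSubgroupOf 2 (T : Subgroup G) : Subgroup G) : Set G) :=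
    fun h' => h1 _ (H51.thompsonSubgroupOf_ne_bot
      ((T.isPGroup'.card_eq_or_dvd).resolve_left fun h'' => hT0 (card_eq_one.1 h''))) hJ
      (sup_le (by
        rw [← H51.thompsonSubgroupOf_eq_of_le hJ hRT]
        exact hRM.trans (H51.normalizer_le_normalizer_thompsonSubgroupOf 2 _)) h')
  have hP : PMin 2 (T : Subgroup G) H₀ H := ⟨hS, fun h' => hJ'
    (h'.trans (H51.normalizer_le_normalizer_thompsonSubgroupOf 2 _)), hU⟩
  have hi := H.subtype_injective
  have e : ∀ {X : Subgroup G}, X ≤ H → (X.subgroupOf H).map H.subtype = X :=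
    fun h' => map_subgroupOf_eq_of_le h'
  have eT : (⊤ : Subgroup H).map H.subtype = H := by rw [← MonoidHom.range_eq_map, range_subtype]
  have hVH := hVT.trans hTH
  have hyp : Hyp ((T : Subgroup G).subgroupOf H) (H₀.subgroupOf H) (V.subgroupOf H)
      (D.subgroupOf H) := by
    refine ⟨hP.subgroupOf, H83.charP_iff.1 (charP_of_calH hQ T hH.1 hTH), elemAb_subgroupOf hV H,
      comap_mono hVT, ?_, ?_, ?_, comap_mono hD, ?_, ?_, fun h' => h3 ?_⟩
    · rw [← H53.map_le_normalizer_map_iff hi, e hTH, e hVH]; exact hTM₀.trans hn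
    · rw [← H53.map_le_normalizer_map_iff hi, eT, e hVH]
      exact fun h' => h1 V hV0 hVR (sup_le hn h')
    · rwa [← H53.map_le_normalizer_map_iff hi, eT, H51.map_thompsonSubgroupOf _ _ hi, e hTH]
    · rwa [← H53.map_le_normalizer_map_iff hi, e hU.lt.le, e (hD.trans hU.lt.le)]
    · rw [centralizer_subgroupOf hVH]
      exact congrArg (comap H.subtype) hDT
    · have := quad_map hi h'
      rwa [e hTH, e hVH] at this
  by_cases hVQ : V ≤ pCoreOf 2 H
  · have h5 := map_mono (f := H.subtype) (hyp.in_case (by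
      rw [← pCoreOf_subgroupOf]; exact comap_mono hVQ))
    rw [map_inf _ _ _ hi, e hTH, centralizer_subgroupOf hVH] at h5
    exact h4 (h5.trans (map_comap_le _ _))
  · have h5 := cubic_map hi (hyp.out_case hl hmp (sqtk_of_calH hG hQ hH.1) fun h' =>
      hVQ ((e hVH).ge.trans (map_mono h')))
    rw [e hTH, e hVH] at h5
    exact h2 hVQ h5

theorem s1824 {G : Type u} [Group G] [Finite G] [IsSimpleGroup G] (hl : ListStmt.{u})
    (hmp : MPStmt2.{u}) (hG : ¬ IsMulCommutative G) (hQ : IsQTKE G) (T : Sylow 2 G)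
    (M M₀ H V : Subgroup G) (hM : M ∈ maxTwoLocalsContaining (T : Subgroup G))
    (hTM₀ : (T : Subgroup G) ≤ M₀) (hH : H ∈ calHMin (T : Subgroup G) M) (hV : V ∈ calR2 M₀)
    (hR : (pCore 2 ↥M₀).map M₀.subtype = (T : Subgroup G) ⊓ centralizer (V : Set G))
    (hI : H ⊓ M ≤ normalizer (oddGenerated M₀ : Set G) ∨ H ⊓ M ≤ normalizer (V : Set G)) :
    (∃ R₀ : Subgroup G, R₀ ≠ ⊥ ∧ R₀ ≤ (pCore 2 ↥M₀).map M₀.subtype ∧
        M₀ ⊔ H ≤ normalizer (R₀ : Set G)) ∨
      (¬ V ≤ (pCore 2 ↥H).map H.subtype ∧ CubicParamLE M₀ V 2) ∨ QuadParamLE M₀ V 2 := by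
  have hU := uniqMax_of_calHMin (isSyl_of_sylow_le T hH.1.1.2) hM.2 hH
  obtain ⟨D, h1, h2, h3⟩ : ∃ D : Subgroup G, D ≤ H ⊓ M ∧ H ⊓ M ≤ normalizer (D : Set G) ∧
      (T : Subgroup G) ⊓ D = (T : Subgroup G) ⊓ centralizer (V : Set G) := by
    rcases hI with hI | hI
    · rw [show oddGenerated M₀ = resOf 2 M₀ from oddGenerated_eq M₀] at hI
      set X := resOf 2 M₀ with hX
      have hS := isSyl_of_sylow_le (p := 2) T hTM₀
      have hXM : M₀ ≤ normalizer (X : Set G) := le_normalizer_resOf 2 M₀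
      have hn : ∀ {Y : Subgroup G}, Y ≤ normalizer (X : Set G) →
          Y ≤ normalizer ((H52.cmod (pCoreOf 2 X) X : Subgroup G) : Set G) := fun h' =>
        (le_inf (h'.trans (normalizer_le_normalizer_pCoreOf 2 X)) h').trans
          (H52.normalizer_inf_le_normalizer_cmod _ _)
      refine ⟨H ⊓ M ⊓ H52.cmod (pCoreOf 2 X) X, inf_le_left,
        le_normalizer_inf le_normalizer (hn hI), ?_⟩
      rw [← inf_assoc, inf_eq_left.2 hU.le, ← hR]
      have hOX : pCoreOf 2 X = X ⊓ pCoreOf 2 M₀ := pCoreOf_eq_inf (resOf_le 2 M₀) hXM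
      refine le_antisymm ?_ (le_inf hS.pCoreOf_le (H52.le_cmod_iff.2
        ⟨((pCoreOf_le 2 M₀).trans hXM).trans (normalizer_le_normalizer_pCoreOf 2 X), ?_⟩))
      · set R := (T : Subgroup G) ⊓ H52.cmod (pCoreOf 2 X) X with hRdef
        have hOT : pCoreOf 2 X ≤ T := (hOX.le.trans inf_le_right).trans hS.pCoreOf_le
        refine le_sup_left.trans (le_pCoreOf (Q := R ⊔ pCoreOf 2 X)
          ((sup_le inf_le_left hOT).trans hTM₀) (T.isPGroup'.to_le (sup_le inf_le_left hOT))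
          (hS.resOf_sup.ge.trans (sup_le ?_ (le_normalizer_sup
            (le_normalizer_inf le_normalizer (hn (hTM₀.trans hXM)))
            ((hTM₀.trans hXM).trans (normalizer_le_normalizer_pCoreOf 2 X))))))
        refine le_normalizer_of_commutator_le le_sup_right (sup_commutator_le
          (((inf_le_left.trans hTM₀).trans hXM).trans (normalizer_le_normalizer_pCoreOf 2 X))
          le_normalizer ?_ (commutator_le_left_of_le_normalizer (le_normalizer_pCoreOf 2 X)))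
        rw [Subgroup.commutator_comm]
        exact (H52.le_cmod_iff.1 (inf_le_right : R ≤ _)).2
      · rw [hOX]
        exact H52.commutator_le_inf_of_normalizer ((resOf_le 2 M₀).trans
          (le_normalizer_pCoreOf 2 M₀)) ((pCoreOf_le 2 M₀).trans hXM)
    · exact ⟨H ⊓ M ⊓ centralizer (V : Set G), inf_le_left,
        le_normalizer_inf le_normalizer (le_normalizer_centralizer hI), by
          rw [← inf_assoc, inf_eq_left.2 hU.le]⟩
  rcases qrc hl hmp hG hQ T hTM₀ hH.1.1 hU hV.2.2.1 hV.1 hV.2.1 hR h1 h2 h3 with h | h | h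
  · exact Or.inl h
  · exact Or.inr (Or.inl ⟨h.1, cubic_mono h.2 hTM₀⟩)
  · exact Or.inr (Or.inr (quad_mono h hTM₀))

end Cfsg.Agent.H93.QR
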