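import Mathlib
import Cfsg.Agent.H93.QrcMain
import Cfsg.Agent.H81.QTXi2
import Cfsg.Agent.H5.Semiregular
import Cfsg.Agent.H53.Transp

/-!
Groups of order `p²` and `p³` acting on elementary abelian 2-groups, with involutions of small
codimension.
-/

set_option autoImplicit false

namespace Cfsg.Agent.H93.QR

open Subgroup Cfsg.Agent.H85 Cfsg.Agent.H81.QT
open scoped commutatorElement

variable {G : Type*} [Group G] {p : ℕ}

theorem cz_eq (g : G) : centralizer ((zpowers g : Subgroup G) : Set G) = centralizer {g} := by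
  rw [zpowers_eq_closure, centralizer_closure]

theorem indep {V Y L₀ L : Subgroup G} (hV : IsMulCommutative V) (hY : Y ≤ V)
    (h1 : L ≤ normalizer (Y : Set G)) (h2 : L ≤ normalizer (L₀ : Set G))
    (h3 : Y ⊓ centralizer (L₀ : Set G) = ⊥)
    (h4 : V ⊓ centralizer (L : Set G) ⊓ centralizer (L₀ : Set G) = ⊥) :
    (Y ⊔ V ⊓ centralizer (L : Set G)) ⊓ centralizer (L₀ : Set G) = ⊥ := by
  refine le_bot_iff.1 (le_trans (le_inf (le_inf (inf_le_left.trans (sup_le hY inf_le_left)) ?_)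
    inf_le_right) h4.le)
  rw [← commutator_eq_bot_iff_le_centralizer, eq_bot_iff, ← h3]
  refine le_inf ((commutator_mono inf_le_left le_rfl).trans (sup_commutator_le le_normalizer
    (H53.le_normalizer_of_le_comm hV inf_le_left hY) (commutator_le_left_of_le_normalizer h1) ?_))
    ((commutator_mono inf_le_right le_rfl).trans
      (commutator_le_left_of_le_normalizer (le_normalizer_centralizer h2)))
  rw [commutator_eq_bot_iff_le_centralizer.2 inf_le_right]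
  exact bot_le

variable [Finite G]

theorem free_modEq {H Y : Subgroup G} (h : H ≤ normalizer (Y : Set G))
    (hf : ∀ a ∈ H, a ≠ 1 → Y ⊓ centralizer {a} = ⊥) : Nat.card Y ≡ 1 [MOD Nat.card H] := by
  letI := H5.conjAction H Y h
  exact (H5.semireg_conjAction h hf).card_modEq_one

theorem card_le_relIndex {V Y C : Subgroup G} (hY : Y ≤ V) (h : Y ⊓ C = ⊥) :
    Nat.card Y ≤ C.relIndex V := by
  refine le_trans ?_ (H53.relIndex_mono_right C hY)
  rw [← inf_relIndex_left, h, relIndex_bot_left]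

theorem card_sup_eq {V A B : Subgroup G} (hV : IsMulCommutative V) (hA : A ≤ V) (hB : B ≤ V)
    (h : A ⊓ B = ⊥) : Nat.card ↥(A ⊔ B) = Nat.card A * Nat.card B := by
  rw [← H53.card_inf_mul_card_sup (H53.le_normalizer_of_le_comm hV hB hA), h, card_bot, one_mul]

theorem dih {Y : Subgroup G} {a x : G} (ha : a * a = 1) (hx : a * x * a⁻¹ = x⁻¹)
    (ho : Odd (orderOf x)) (hn : x ∈ normalizer (Y : Set G)) :
    (centralizer ((zpowers x : Subgroup G) : Set G)).relIndex Y ≤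
      (centralizer ((zpowers a : Subgroup G) : Set G)).relIndex Y ^ 2 := by
  have h1 : zpowers x ≤ zpowers a ⊔ cj x (zpowers a) := by
    have h1 : x ^ 2 = x * a * x⁻¹ * a := by
      rw [← hx, pow_two]
      calc x * x = x * (a * a) * x * (a⁻¹ * a) := by rw [ha]; group
        _ = _ := by simp only [mul_assoc]
    refine (zpowers_le.2 (mem_zpowers_pow_iff.2 (Nat.coprime_two_left.2 ho))).trans (zpowers_le.2 ?_)
    rw [h1]
    exact mul_mem (mem_sup_right (conj_mem_cj (mem_zpowers a))) (mem_sup_left (mem_zpowers a))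
  have h2 := relIndex_cj x (zpowers a) Y
  rw [cj_eq_of_mem_normalizer hn] at h2
  refine (H53.relIndex_anti_left (centralizer_anti h1) Y).trans ?_
  rw [centralizer_sup, pow_two]
  exact relIndex_inf_le.trans (by rw [h2])

omit [Finite G] in
theorem half {Y : Subgroup G} (hY : IsElementaryAbelian 2 Y) {a : G} (ha : a * a = 1)
    (hn : a ∈ normalizer (Y : Set G)) : ⁅Y, zpowers a⁆ ≤ centralizer {a} := by
  have ha' : a⁻¹ = a := inv_eq_of_mul_eq_one_right ha
  rw [commutator_le]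
  intro y hy b hb
  have hb' : b = 1 ∨ b = a := by
    obtain ⟨k, rfl⟩ := hb
    rcases Int.even_or_odd' k with ⟨j, rfl | rfl⟩
    · left; simp only [zpow_mul, zpow_two, ha, one_zpow]
    · right; simp only [zpow_add_one, zpow_mul, zpow_two, ha, one_zpow, one_mul]
  rcases hb' with rfl | rfl
  · rw [commutatorElement_one_right]; exact one_mem _
  · have h1 : ⁅y, b⁆ ∈ Y := commutator_le_left_of_le_normalizer (zpowers_le.2 hn)
      (commutator_mem_commutator hy (mem_zpowers b))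
    have h2 : ⁅y, b⁆⁻¹ = ⁅y, b⁆ := inv_eq_of_mul_eq_one_right (by rw [← pow_two, hY.2 _ h1])
    rw [mem_centralizer_singleton_iff]
    conv_rhs => rw [← h2]
    rw [commutatorElement_inv, commutatorElement_def, commutatorElement_def, ha']
    calc y * b * y⁻¹ * b * b = y * b * y⁻¹ * (b * b) := by group
      _ = b * b * y * b * y⁻¹ := by rw [ha]; group
      _ = _ := by group

theorem sixteen_le {Y : Subgroup G} (hY : IsElementaryAbelian 2 Y) {a x : G} (ha : a * a = 1)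
    (hx : a * x * a⁻¹ = x⁻¹) (ho : Odd (orderOf x)) (hn : x ∈ normalizer (Y : Set G))
    (hn' : a ∈ normalizer (Y : Set G))
    (h0 : Y ⊓ centralizer ((zpowers x : Subgroup G) : Set G) = ⊥) (h8 : 8 ≤ Nat.card Y) :
    16 ≤ Nat.card Y := by
  have h1 := (card_le_relIndex le_rfl h0).trans (dih ha hx ho hn)
  have h2 := H53.card_centralizer_mul_card_commutator hY.1 hn'
  have h3 := card_le_of_le (le_inf (commutator_le_left_of_le_normalizer (zpowers_le.2 hn'))
    ((half hY ha hn').trans (cz_eq a).ge))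
  rw [H53.relIndex_centralizer_zpowers hY.1 hn'] at h1
  obtain ⟨k, hk⟩ := (H53.isPGroup_of_elemAb hY).exists_card_eq
  generalize Nat.card ↥⁅Y, zpowers a⁆ = n at h1 h2 h3
  have h4 : Nat.card Y = n ^ 2 := le_antisymm h1 (by rw [← h2, pow_two]; gcongr)
  by_contra h5
  have h6 : n = 3 := by nlinarith
  rw [h6, hk] at h4
  have : k < 4 := (Nat.pow_lt_pow_iff_right one_lt_two).1 (by omega)
  interval_cases k <;> omega

variable [hp : Fact p.Prime]

theorem zpowers_eq_of_card {L : Subgroup G} (hL : Nat.card L = p) {a : G} (ha : a ∈ L) (h1 : a ≠ 1) :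
    zpowers a = L :=
  (H53.eq_bot_or_eq_of_card_prime hL (zpowers_le.2 ha)).resolve_left
    (fun h' => h1 (zpowers_eq_bot.1 h'))

theorem big {Y L : Subgroup G} (hY : IsPGroup 2 Y) (h0 : Y ≠ ⊥) (h5 : 5 ≤ p) (hL : Nat.card L = p)
    (hn : L ≤ normalizer (Y : Set G)) (hf : Y ⊓ centralizer (L : Set G) = ⊥) :
    8 ≤ Nat.card Y ∧ (Nat.card Y = 16 → p = 5) := by
  have h1 := free_modEq hn fun a ha h1 => by rwa [← cz_eq, zpowers_eq_of_card hL ha h1]
  rw [hL] at h1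
  have h2 := (Nat.modEq_iff_dvd' Nat.card_pos).1 h1.symm
  obtain ⟨k, hk⟩ := hY.exists_card_eq
  have h3 : Nat.card Y ≠ 1 := fun h' => h0 (card_eq_one.1 h')
  refine ⟨?_, fun h' => ?_⟩
  · by_contra h4
    rw [hk] at h2 h3 h4
    have : k < 3 := (Nat.pow_lt_pow_iff_right one_lt_two).1 (by omega)
    interval_cases k
    · exact h3 rfl
    · have := Nat.le_of_dvd (by norm_num) h2; omega
    · have := Nat.le_of_dvd (by norm_num) h2; omega
  · rw [h'] at h2
    have h4 := Nat.le_of_dvd (by norm_num) h2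
    have := hp.out
    interval_cases p <;> first | omega | (exact absurd this (by norm_num))

/-- an elementary abelian group of order `p²` acting without fixed points -/
structure PT (p : ℕ) (V E : Subgroup G) : Prop where
  eV : IsElementaryAbelian 2 V
  eE : IsElementaryAbelian p E
  card : Nat.card E = p ^ 2
  nm : E ≤ normalizer (V : Set G)
  fpf : V ⊓ centralizer (E : Set G) = ⊥
  five : 5 ≤ p

/-- the subgroups of order `p` -/
def Pt (p : ℕ) (E L : Subgroup G) : Prop := L ≤ E ∧ Nat.card L = p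

omit [Finite G] in
theorem pt_zpowers {E : Subgroup G} (hE : IsElementaryAbelian p E) {a : G} (ha : a ∈ E)
    (h1 : a ≠ 1) : Pt p E (zpowers a) :=
  ⟨zpowers_le.2 ha, by rw [Nat.card_zpowers, orderOf_eq_prime (hE.2 a ha) h1]⟩

omit [Finite G] hp in
theorem Pt.cj {E L : Subgroup G} (h : Pt p E L) {m : G} (hm : m ∈ normalizer (E : Set G)) :
    Pt p E (cj m L) := ⟨cj_le_of_mem_normalizer h.1 hm, (card_cj m L).trans h.2⟩

omit [Finite G] hp in
theorem fix_cj {V L : Subgroup G} (h : V ⊓ centralizer (L : Set G) ≠ ⊥) {m : G}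
    (hm : m ∈ normalizer (V : Set G)) :
    V ⊓ centralizer ((cj m L : Subgroup G) : Set G) ≠ ⊥ := by
  rwa [← cj_centralizer, ← cj_eq_of_mem_normalizer hm, ← cj_inf, Ne, cj_eq_bot_iff]

namespace PT

variable {V E : Subgroup G}

theorem sup_eq (h : PT p V E) {L L' : Subgroup G} (h1 : Pt p E L) (h2 : Pt p E L') (hne : L ≠ L') :
    L ⊔ L' = E :=
  eq_of_le_of_card_ge (sup_le h1.1 h2.1) (by
    rw [H53.card_sup_of_ne h1.2 h2.2 (H53.le_normalizer_of_le_comm h.eE.1 h2.1 h1.1) hne, h.card])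

theorem ind (h : PT p V E) {L L' : Subgroup G} (h1 : Pt p E L) (h2 : Pt p E L') (hne : L ≠ L') :
    V ⊓ centralizer (L : Set G) ⊓ centralizer (L' : Set G) = ⊥ := by
  rw [inf_assoc, ← centralizer_sup, h.sup_eq h1 h2 hne, h.fpf]

omit [Finite G] hp in
theorem nmL (h : PT p V E) {L : Subgroup G} (h1 : Pt p E L) :
    E ≤ normalizer ((V ⊓ centralizer (L : Set G) : Subgroup G) : Set G) :=
  le_normalizer_inf h.nm
    (le_normalizer_centralizer (H53.le_normalizer_of_le_comm h.eE.1 le_rfl h1.1))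

theorem gen (h : PT p V E) {H : Subgroup G}
    (h1 : ∀ L, Pt p E L → V ⊓ centralizer (L : Set G) ≤ H) : V ≤ H := by
  haveI := h.eE.1
  refine H4.le_of_centralizer_singleton_le (fun h' => ?_) h.nm ?_ fun a ha h2 => ?_
  · obtain ⟨g, hg⟩ := h'.exists_generator
    have h2 := orderOf_eq_card_of_forall_mem_zpowers hg
    have h3 : orderOf g ≤ p := orderOf_le_of_pow_eq_one hp.out.pos (Subtype.ext (h.eE.2 g g.2))
    have := h.five
    rw [h2, h.card] at h3
    nlinarith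
  · obtain ⟨k, hk⟩ := (H53.isPGroup_of_elemAb h.eV).exists_card_eq
    rw [hk, h.card]
    exact Nat.Coprime.pow _ _ ((Nat.coprime_primes hp.out Nat.prime_two).2 (by
      have := h.five; omega))
  · rw [← cz_eq]; exact h1 _ (pt_zpowers h.eE ha h2)

theorem new_pt (h : PT p V E) {L₁ L₂ L₃ : Subgroup G} (h1 : Pt p E L₁) (h2 : Pt p E L₂)
    (h3 : Pt p E L₃) : ∃ L, Pt p E L ∧ L ≠ L₁ ∧ L ≠ L₂ ∧ L ≠ L₃ := by
  obtain ⟨a, ha, h4⟩ : ∃ a ∈ E, a ∉ L₁ ∧ a ∉ L₂ ∧ a ∉ L₃ := by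
    by_contra! h'
    have h4 : (E : Set G) ⊆ (L₁ : Set G) ∪ L₂ ∪ L₃ := fun a ha => by
      by_contra h4
      simp only [Set.mem_union, not_or] at h4
      exact h4.2 (h' a ha h4.1.1 h4.1.2)
    have h5 := (Set.ncard_le_ncard h4).trans ((Set.ncard_union_le _ _).trans
      (Nat.add_le_add_right (Set.ncard_union_le _ _) _))
    simp only [← Nat.card_coe_set_eq, SetLike.coe_sort_coe] at h5
    rw [h.card, h1.2, h2.2, h3.2] at h5
    have := h.five
    nlinarith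
  exact ⟨_, pt_zpowers h.eE ha fun h' => h4.1 (h' ▸ one_mem _), fun h' => h4.1 (h' ▸ mem_zpowers a),
    fun h' => h4.2.1 (h' ▸ mem_zpowers a), fun h' => h4.2.2 (h' ▸ mem_zpowers a)⟩

theorem bigL (h : PT p V E) {L : Subgroup G} (h1 : Pt p E L)
    (h0 : V ⊓ centralizer (L : Set G) ≠ ⊥) : 8 ≤ Nat.card ↥(V ⊓ centralizer (L : Set G)) ∧
      (Nat.card ↥(V ⊓ centralizer (L : Set G)) = 16 → p = 5) := by
  obtain ⟨L', h2, h3, -⟩ := h.new_pt h1 h1 h1
  exact big ((H53.isPGroup_of_elemAb h.eV).to_le inf_le_left) h0 h.five h2.2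
    (h2.1.trans (h.nmL h1)) (h.ind h1 h2 h3.symm)

theorem two (h : PT p V E) {L₀ L₁ L₂ : Subgroup G} (h0 : Pt p E L₀) (h1 : Pt p E L₁)
    (h2 : Pt p E L₂) (n01 : L₀ ≠ L₁) (n02 : L₀ ≠ L₂) :
    (V ⊓ centralizer (L₁ : Set G) ⊔ V ⊓ centralizer (L₂ : Set G)) ⊓ centralizer (L₀ : Set G) = ⊥ :=
  indep h.eV.1 inf_le_left (h2.1.trans (h.nmL h1))
    (H53.le_normalizer_of_le_comm h.eE.1 h2.1 h0.1) (h.ind h1 h0 n01.symm) (h.ind h2 h0 n02.symm)

theorem card_two (h : PT p V E) {L₁ L₂ : Subgroup G} (h1 : Pt p E L₁) (h2 : Pt p E L₂)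
    (n12 : L₁ ≠ L₂) :
    Nat.card ↥(V ⊓ centralizer (L₁ : Set G) ⊔ V ⊓ centralizer (L₂ : Set G)) =
      Nat.card ↥(V ⊓ centralizer (L₁ : Set G)) * Nat.card ↥(V ⊓ centralizer (L₂ : Set G)) :=
  card_sup_eq h.eV.1 inf_le_left inf_le_left (le_bot_iff.1
    ((inf_le_inf_left _ inf_le_right).trans (h.ind h1 h2 n12).le))

theorem two_le (h : PT p V E) {L₀ L₁ L₂ : Subgroup G} (h0 : Pt p E L₀) (h1 : Pt p E L₁)
    (h2 : Pt p E L₂) (n01 : L₀ ≠ L₁) (n02 : L₀ ≠ L₂) (n12 : L₁ ≠ L₂) :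
    Nat.card ↥(V ⊓ centralizer (L₁ : Set G)) * Nat.card ↥(V ⊓ centralizer (L₂ : Set G)) ≤
      (centralizer (L₀ : Set G)).relIndex V :=
  (h.card_two h1 h2 n12).ge.trans
    (card_le_relIndex (sup_le inf_le_left inf_le_left) (h.two h0 h1 h2 n01 n02))

theorem three (h : PT p V E) {L₀ L₁ L₂ L₃ : Subgroup G} (h0 : Pt p E L₀) (h1 : Pt p E L₁)
    (h2 : Pt p E L₂) (h3 : Pt p E L₃) (n01 : L₀ ≠ L₁) (n02 : L₀ ≠ L₂) (n03 : L₀ ≠ L₃)
    (n12 : L₁ ≠ L₂) (n31 : L₃ ≠ L₁) (n32 : L₃ ≠ L₂) (f1 : V ⊓ centralizer (L₁ : Set G) ≠ ⊥)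
    (f2 : V ⊓ centralizer (L₂ : Set G) ≠ ⊥) (f3 : V ⊓ centralizer (L₃ : Set G) ≠ ⊥) :
    512 ≤ (centralizer (L₀ : Set G)).relIndex V := by
  have hle : V ⊓ centralizer (L₁ : Set G) ⊔ V ⊓ centralizer (L₂ : Set G) ≤ V :=
    sup_le inf_le_left inf_le_left
  have h4 := card_le_relIndex (sup_le hle inf_le_left) (indep h.eV.1 hle
    (h3.1.trans (le_normalizer_sup (h.nmL h1) (h.nmL h2)))
    (H53.le_normalizer_of_le_comm h.eE.1 h3.1 h0.1) (h.two h0 h1 h2 n01 n02)
    (h.ind h3 h0 n03.symm))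
  rw [card_sup_eq h.eV.1 hle inf_le_left (le_bot_iff.1 ((inf_le_inf_left _ inf_le_right).trans
    (h.two h3 h1 h2 n31 n32).le)), h.card_two h1 h2 n12] at h4
  exact le_trans (Nat.mul_le_mul (Nat.mul_le_mul (h.bigL h1 f1).1 (h.bigL h2 f2).1)
    (h.bigL h3 f3).1) h4

theorem other (h : PT p V E) (hf : E ⊓ centralizer (V : Set G) = ⊥) {L : Subgroup G}
    (h1 : Pt p E L) : ∃ L', Pt p E L' ∧ L' ≠ L ∧ V ⊓ centralizer (L' : Set G) ≠ ⊥ := by
  by_contra! h'
  have h2 : V ≤ centralizer (L : Set G) := h.gen fun L' hL' => by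
    by_cases e : L' = L
    · rw [e]; exact inf_le_right
    · rw [h' L' hL' e]; exact bot_le
  exact H53.ne_bot_of_card_prime h1.2
    (le_bot_iff.1 ((le_inf h1.1 (le_centralizer_comm h2)).trans hf.le))

theorem pow_mem (h : PT p V E) {L₁ L₂ : Subgroup G} (h1 : Pt p E L₁) (h2 : Pt p E L₂)
    (n12 : L₁ ≠ L₂) (f1 : V ⊓ centralizer (L₁ : Set G) ≠ ⊥) (f2 : V ⊓ centralizer (L₂ : Set G) ≠ ⊥)
    (h3 : ∀ L, Pt p E L → V ⊓ centralizer (L : Set G) ≠ ⊥ → L = L₁ ∨ L = L₂) {m : G}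
    (hV : m ∈ normalizer (V : Set G)) (hE : m ∈ normalizer (E : Set G)) :
    (m * m) ^ (p - 1) ∈ centralizer (E : Set G) := by
  have e1 := h3 _ (h1.cj hE) (fix_cj f1 hV)
  have e2 := h3 _ (h2.cj hE) (fix_cj f2 hV)
  have h4 : cj (m * m) L₁ = L₁ ∧ cj (m * m) L₂ = L₂ := by
    rw [cj_mul, cj_mul]
    rcases e1 with e1 | e1 <;> rcases e2 with e2 | e2
    · exact absurd (cj_inj m (e1.trans e2.symm)) n12
    · exact ⟨by rw [e1, e1], by rw [e2, e2]⟩
    · exact ⟨by rw [e1, e2], by rw [e2, e1]⟩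
    · exact absurd (cj_inj m (e1.trans e2.symm)) n12
  rw [← h.sup_eq h1 h2 n12, centralizer_sup]
  exact ⟨H53.pow_sub_one_mem_centralizer h1.2 (cj_eq_iff_mem_normalizer.1 h4.1),
    H53.pow_sub_one_mem_centralizer h2.2 (cj_eq_iff_mem_normalizer.1 h4.2)⟩

omit [Finite G] in
theorem odd_order (h : PT p V E) {x : G} (hx : x ∈ E) : Odd (orderOf x) :=
  Odd.of_dvd_nat (hp.out.odd_of_ne_two (by have := h.five; omega))
    (orderOf_dvd_of_pow_eq_one (h.eE.2 x hx))

theorem alpha (h : PT p V E) (hf : E ⊓ centralizer (V : Set G) = ⊥) {a : G} (ha : a * a = 1)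
    (hV : a ∈ normalizer (V : Set G)) (hi : ∀ x ∈ E, a * x * a⁻¹ = x⁻¹)
    (hc : (centralizer ((zpowers a : Subgroup G) : Set G)).relIndex V ≤ 16) :
    p = 5 ∧ ∀ m ∈ normalizer (V : Set G), m ∈ normalizer (E : Set G) →
      (m * m) ^ (p - 1) ∈ centralizer (E : Set G) := by
  have hb : ∀ L, Pt p E L → (centralizer (L : Set G)).relIndex V ≤ 256 := fun L hL => by
    obtain ⟨x, -, -, rfl⟩ := H53.exists_zpowers_of_card_prime hL.2
    have hx := hL.1 (mem_zpowers x)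
    exact (dih ha (hi x hx) (h.odd_order hx) (h.nm hx)).trans (Nat.pow_le_pow_left hc 2)
  obtain ⟨g, hg, hg1⟩ := (E.bot_or_exists_ne_one).resolve_left fun h' => by
    have h1 := h.card
    have := h.five
    rw [h', card_bot] at h1
    nlinarith
  obtain ⟨L₁, h1, -, f1⟩ := h.other hf (pt_zpowers h.eE hg hg1)
  obtain ⟨L₂, h2, n21, f2⟩ := h.other hf h1
  have h3 : ∀ L, Pt p E L → V ⊓ centralizer (L : Set G) ≠ ⊥ → L = L₁ ∨ L = L₂ := fun L hL fL => by
    by_contra! h'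
    obtain ⟨L₀, h0, n1, n2, n3⟩ := h.new_pt h1 h2 hL
    have := (h.three h0 h1 h2 hL n1 n2 n3 n21.symm h'.1 h'.2 f1 f2 fL).trans (hb _ h0)
    omega
  refine ⟨?_, fun m hm hm' => h.pow_mem h1 h2 n21.symm f1 f2 h3 hm hm'⟩
  obtain ⟨L₀, h0, n1, n2, -⟩ := h.new_pt h1 h2 h2
  have h4 := (h.two_le h0 h1 h2 n1 n2 n21.symm).trans (hb _ h0)
  obtain ⟨x, -, -, rfl⟩ := H53.exists_zpowers_of_card_prime h0.2
  have hx := h0.1 (mem_zpowers x)
  have h5 : ∀ L, Pt p E L → zpowers x ≠ L → V ⊓ centralizer (L : Set G) ≠ ⊥ →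
      16 ≤ Nat.card ↥(V ⊓ centralizer (L : Set G)) := fun L hL n fL =>
    sixteen_le (H53.IsElementaryAbelian.of_le' h.eV inf_le_left) ha (hi x hx) (h.odd_order hx)
      (h.nmL hL hx) (le_normalizer_inf (zpowers_le.2 hV) (le_normalizer_centralizer
        (zpowers_le.2 (mem_normalizer_of_cj_le (by
          rintro _ ⟨y, hy, rfl⟩
          change a * y * a⁻¹ ∈ L
          rw [hi y (hL.1 hy)]
          exact L.inv_mem hy)))) (mem_zpowers a))
      (h.ind hL h0 n.symm) (h.bigL hL fL).1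
  have h6 := h5 _ h1 n1 f1
  have h7 := h5 _ h2 n2 f2
  exact (h.bigL h1 f1).2 (by nlinarith)

theorem beta (h : PT p V E) (hf : E ⊓ centralizer (V : Set G) = ⊥) {a : G} (ha : a * a = 1)
    (hV : a ∈ normalizer (V : Set G)) (hE : a ∈ normalizer (E : Set G)) {x : G} (hx : x ∈ E)
    (hx1 : x ≠ 1) (hi : a * x * a⁻¹ = x⁻¹)
    (hc : (centralizer ((zpowers a : Subgroup G) : Set G)).relIndex V ≤ 4) :
    p = 5 ∧ ∀ m ∈ normalizer (V : Set G), m ∈ normalizer (E : Set G) →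
      (m * m) ^ (p - 1) ∈ centralizer (E : Set G) := by
  have hb := (dih ha hi (h.odd_order hx) (h.nm hx)).trans (Nat.pow_le_pow_left hc 2)
  have h1 := pt_zpowers h.eE hx hx1
  obtain ⟨L₂, h2, n21, f2⟩ := h.other hf h1
  have h3 : ∀ L, Pt p E L → V ⊓ centralizer (L : Set G) ≠ ⊥ → L = zpowers x ∨ L = L₂ :=
    fun L hL fL => by
      by_contra! h'
      have := (Nat.mul_le_mul (h.bigL h2 f2).1 (h.bigL hL fL).1).trans
        ((h.two_le h1 h2 hL n21.symm h'.1.symm h'.2.symm).trans hb)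
      omega
  obtain ⟨L, hL, n, f1⟩ := h.other hf h2
  rw [(h3 L hL f1).resolve_right n] at f1
  refine ⟨?_, fun m hm hm' => h.pow_mem h1 h2 n21.symm f1 f2 h3 hm hm'⟩
  have h4 : cj a L₂ = L₂ := (h3 _ (h2.cj hE) (fix_cj f2 hV)).resolve_left fun h' =>
    n21 (cj_inj a (h'.trans (by rw [cj_zpowers, hi, zpowers_inv])))
  have h5 := sixteen_le (H53.IsElementaryAbelian.of_le' h.eV inf_le_left) ha hi (h.odd_order hx)
    (h.nmL h2 hx) (le_normalizer_inf (zpowers_le.2 hV) (le_normalizer_centralizer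
      (zpowers_le.2 (cj_eq_iff_mem_normalizer.1 h4))) (mem_zpowers a))
    (h.ind h2 h1 n21) (h.bigL h2 f2).1
  exact (h.bigL h2 f2).2 (le_antisymm
    ((card_le_relIndex inf_le_left (h.ind h2 h1 n21)).trans hb) h5)

end PT

end Cfsg.Agent.H93.QR
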