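import Mathlib
import Cfsg.Agent.H93.QrcEnd

/-!
Faithful solvable uniqueness groups: the module argument.
-/

set_option autoImplicit false

namespace Cfsg.Agent.H93.QR

open Subgroup Cfsg.Agent.H85 Cfsg.Agent.H81.QT
open scoped commutatorElement

variable {G : Type*} [Group G] {p : ℕ}

theorem inv_comm {a : G} (ha : a * a = 1) (y : G) : a * ⁅y, a⁆ * a⁻¹ = ⁅y, a⁆⁻¹ := by
  rw [commutatorElement_inv, commutatorElement_def, commutatorElement_def,
    inv_eq_of_mul_eq_one_right ha]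
  calc a * (y * a * y⁻¹ * a) * a = a * y * a * y⁻¹ * (a * a) := by group
    _ = _ := by rw [ha, mul_one]

variable [Finite G] [hp : Fact p.Prime]

theorem extra {T P Φ V : Subgroup G} (h : XD p T P ⊥ Φ) (hΦ : Nat.card Φ = p)
    (hV : IsElementaryAbelian 2 V) (hn : P ≤ normalizer (V : Set G))
    (hf : P ⊓ centralizer (V : Set G) = ⊥) (h5 : 5 ≤ p) {a x : G} (ha : a * a = 1) (hx : x ∈ P)
    (hxΦ : x ∉ Φ) (hi : a * x * a⁻¹ = x⁻¹)
    (hc : (centralizer ((zpowers a : Subgroup G) : Set G)).relIndex V ≤ 16) : False := by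
  haveI := hV.1
  have hP : IsPGroup p P := pquot_bot_iff.1 h.pm
  have hPΦ := h.nrm le_rfl h.FX
  have hΦC : Φ ≤ centralizer (P : Set G) := H53.le_centralizer_of_card_prime hΦ hP hPΦ
  have hZ : P ⊓ centralizer (P : Set G) ≤ Φ := (h.le_or (le_normalizer_centralizer le_normalizer)
    (le_normalizer_centralizer h.TX)).resolve_left fun h' => by
      rcases h.sz with ⟨h1, -⟩ | ⟨-, h1⟩
      · have h2 := h.card_F hP
        rw [relIndex_bot_left] at h1
        rw [h1, hΦ] at h2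
        nlinarith
      · exact h1 (commutator_eq_bot_iff_le_centralizer.2 h').le
  have hord : ∀ y ∈ P, ∃ k, orderOf y ∣ p ^ k := fun y hy =>
    (h.pm y hy).imp fun k hk => orderOf_dvd_of_pow_eq_one (mem_bot.1 hk)
  have hodd : Odd (orderOf x) := by
    obtain ⟨k, hk⟩ := hord x hx
    exact Odd.of_dvd_nat (hp.out.odd_of_ne_two h.odd).pow hk
  obtain ⟨n, hn2⟩ := (H53.isPGroup_of_elemAb hV).exists_card_eq
  set U := ⁅V, Φ⁆ with hU
  have hUV : U ≤ V := commutator_le_left_of_le_normalizer (h.FX.trans hn)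
  have hU0 : U ⊓ centralizer (Φ : Set G) = ⊥ := by
    rw [inf_comm]
    refine H4.centralizer_inf_commutator_eq_bot (h.FX.trans hn) ?_
    rw [hΦ, hn2]
    exact ((Nat.coprime_primes hp.out Nat.prime_two).2 h.odd).pow_right n
  have hU1 : U ≠ ⊥ := fun h' => H53.ne_bot_of_card_prime hΦ (le_bot_iff.1
    ((le_inf h.FX (commutator_eq_bot_iff_le_centralizer'.1 h')).trans hf.le))
  have hPU : P ≤ normalizer (U : Set G) := le_normalizer_commutator hn hPΦ
  have hUe := H53.IsElementaryAbelian.of_le' hV hUV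
  have hb : (centralizer ((zpowers x : Subgroup G) : Set G)).relIndex U ≤ 256 :=
    (H53.relIndex_mono_right _ hUV).trans ((dih ha hi hodd (hn hx)).trans
      (Nat.pow_le_pow_left hc 2))
  have hx1 : x ≠ 1 := fun h' => hxΦ (h' ▸ one_mem _)
  by_cases hxp : x ^ p = 1
  · have c0 : Nat.card (zpowers x) = p := by rw [Nat.card_zpowers, orderOf_eq_prime hxp hx1]
    have hEP : zpowers x ⊔ Φ ≤ P := sup_le (zpowers_le.2 hx) h.FX
    obtain ⟨z, -, hz, hz'⟩ := H53.exists_zpowers_of_card_prime hΦ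
    have hE : PT p U (zpowers x ⊔ Φ) := ⟨hUe, H53.elemAb_sup (H51.isEA_zpowers hxp)
      (hz' ▸ H51.isEA_zpowers hz) ((zpowers_le.2 hx).trans (le_centralizer_comm hΦC)),
      H53.card_sup_of_ne c0 hΦ (le_normalizer_of_cent (hΦC.trans
        (centralizer_anti (zpowers_le.2 hx)))) fun h' => hxΦ (h' ▸ mem_zpowers x),
      hEP.trans hPU, le_bot_iff.1 ((inf_le_inf_left _ (centralizer_anti le_sup_right)).trans
        hU0.le), h5⟩
    obtain ⟨L, hL, fL⟩ : ∃ L, Pt p (zpowers x ⊔ Φ) L ∧ U ⊓ centralizer (L : Set G) ≠ ⊥ := by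
      by_contra! h'
      exact hU1 (le_bot_iff.1 (hE.gen fun L hL => (h' L hL).le))
    obtain ⟨y, hy, hyL⟩ : ∃ y ∈ P, y ∉ normalizer (L : Set G) := by
      by_contra! h'
      have h1 : L ≤ Φ := (le_inf (hL.1.trans hEP)
        (H53.le_centralizer_of_card_prime hL.2 hP h')).trans hZ
      rw [eq_of_le_of_card_ge h1 (hΦ.trans hL.2.symm).le] at fL
      exact fL hU0
    have hPE := h.nrm le_sup_right hEP
    have pt : ∀ i : ℕ, Pt p (zpowers x ⊔ Φ) (cj (y ^ i) L) := fun i => hL.cj (hPE (pow_mem hy i))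
    have fx : ∀ i : ℕ, U ⊓ centralizer ((cj (y ^ i) L : Subgroup G) : Set G) ≠ ⊥ := fun i =>
      fix_cj fL (hPU (pow_mem hy i))
    have ne : ∀ i d : ℕ, 0 < d → d < 5 → cj (y ^ (i + d)) L ≠ cj (y ^ i) L := fun i d h1 h2 h' => by
      rw [pow_add, cj_mul] at h'
      obtain ⟨k, hk⟩ := hord y hy
      exact hyL (mem_of_pow_mem_of_coprime (Nat.Coprime.coprime_dvd_left hk
        ((Nat.coprime_of_lt_prime h1.ne' (by omega) hp.out).pow_left k))
        (cj_eq_iff_mem_normalizer.1 (cj_inj _ h')))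
    have n10 := ne 0 1 (by norm_num) (by norm_num)
    have n20 := ne 0 2 (by norm_num) (by norm_num)
    have n30 := ne 0 3 (by norm_num) (by norm_num)
    have n21 := ne 1 1 (by norm_num) (by norm_num)
    have n31 := ne 1 2 (by norm_num) (by norm_num)
    have n32 := ne 2 1 (by norm_num) (by norm_num)
    have p0 : Pt p (zpowers x ⊔ Φ) (zpowers x) := ⟨le_sup_left, c0⟩
    have key : ∀ i j k : ℕ, zpowers x ≠ cj (y ^ i) L → zpowers x ≠ cj (y ^ j) L →
        zpowers x ≠ cj (y ^ k) L → cj (y ^ j) L ≠ cj (y ^ i) L → cj (y ^ k) L ≠ cj (y ^ i) L →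
        cj (y ^ k) L ≠ cj (y ^ j) L → False := fun i j k a1 a2 a3 a4 a5 a6 => by
      have := (hE.three p0 (pt i) (pt j) (pt k) a1 a2 a3 a4.symm a5 a6 (fx i) (fx j) (fx k)).trans hb
      omega
    by_cases e0 : zpowers x = cj (y ^ 0) L
    · exact key 1 2 3 (e0 ▸ n10.symm) (e0 ▸ n20.symm) (e0 ▸ n30.symm) n21 n31 n32
    by_cases e1 : zpowers x = cj (y ^ 1) L
    · exact key 0 2 3 e0 (e1 ▸ n21.symm) (e1 ▸ n31.symm) n20 n30 n32
    by_cases e2 : zpowers x = cj (y ^ 2) L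
    · exact key 0 1 3 e0 e1 (e2 ▸ n32.symm) n10 n30 n31
    exact key 0 1 2 e0 e1 e2 n10 n20 n21
  · have hx2 : x ^ p ^ (1 + 1) = 1 := by
      rw [pow_succ, pow_one, pow_mul, ← hΦ]
      exact congrArg Subtype.val (pow_card_eq_one' (x := (⟨_, hΦ ▸ h.pow x hx⟩ : Φ)))
    have ho := orderOf_eq_prime_pow (by rwa [pow_one]) hx2
    have hfree : ∀ g ∈ zpowers x, g ≠ 1 → U ⊓ centralizer {g} = ⊥ := by
      intro g hg hg1
      have hgP := zpowers_le.2 hx hg
      have key : ∀ z ∈ Φ, z ≠ 1 → z ∈ zpowers g → U ⊓ centralizer {g} = ⊥ := fun z h1 h2 h3 => by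
        rw [← zpowers_eq_of_card hΦ h1 h2] at hU0
        rw [← cz_eq]
        exact le_bot_iff.1 ((inf_le_inf_left _ (centralizer_anti (zpowers_le.2 h3))).trans hU0.le)
      by_cases hgp : g ^ p = 1
      · obtain ⟨k, rfl⟩ := mem_powers_iff_mem_zpowers.2 hg
        simp only at hgp hg1 ⊢
        rw [← pow_mul, ← orderOf_dvd_iff_pow_eq_one, ho, pow_succ, pow_one] at hgp
        obtain ⟨j, rfl⟩ := Nat.dvd_of_mul_dvd_mul_right hp.out.pos hgp
        exact key _ (by rw [pow_mul]; exact pow_mem (h.pow x hx) j) hg1 (mem_zpowers _)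
      · exact key _ (h.pow g hgP) hgp (pow_mem (mem_zpowers g) p)
    have h1 := free_modEq ((zpowers_le.2 hx).trans hPU) hfree
    rw [Nat.card_zpowers, ho] at h1
    have h2 := (Nat.modEq_iff_dvd' Nat.card_pos).1 h1.symm
    have h3 := (card_le_relIndex le_rfl (by rw [cz_eq]; exact hfree x (mem_zpowers x) hx1)).trans hb
    obtain ⟨k, hk⟩ := (H53.isPGroup_of_elemAb hUe).exists_card_eq
    have h4 : Nat.card U ≠ 1 := fun h' => hU1 (card_eq_one.1 h')
    rw [hk] at h2 h3 h4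
    have h6 : k ≤ 8 := (Nat.pow_le_pow_iff_right one_lt_two).1 h3
    have h7 : 1 < 2 ^ k := lt_of_le_of_ne Nat.one_le_two_pow h4.symm
    have h8 := Nat.le_of_dvd (by omega) h2
    have h9 : p < 16 := by
      by_contra h9
      have : 16 ^ (1 + 1) ≤ p ^ (1 + 1) := Nat.pow_le_pow_left (not_lt.1 h9) _
      omega
    interval_cases k <;> interval_cases p <;> omega

theorem four_aux {W : Type*} [Group W] [Finite W] (h2 : p ≠ 2) (hc : IsMulCommutative W)
    (he : ∀ w : W, w ^ p = 1) (hW : Nat.card W ≤ p ^ 2) {A : Subgroup (MulAut W)}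
    (hA : IsElementaryAbelian 2 A) : Nat.card A ≤ 4 := by
  obtain ⟨ρ, hρ⟩ := exists_GL2_of_elem hc he hW
  have hA' := elemAb_map hA ρ
  rw [← card_map_of_injective hρ]
  set B := A.map ρ
  set δ : GL (Fin 2) (ZMod p) →* (ZMod p)ˣ := Matrix.GeneralLinearGroup.det
  have h1 : Nat.card ↥(δ.ker ⊓ B) ≤ 2 := by
    have h1 := H53.IsElementaryAbelian.of_le' hA' (inf_le_right : δ.ker ⊓ B ≤ B)
    obtain ⟨k, hk⟩ := (H53.isPGroup_of_elemAb h1).exists_card_eq
    have h3 : ¬ 2 ^ 2 ≤ Nat.card ↥(δ.ker ⊓ B) := fun h' => not_sq_sl2 h2 h1 h' fun a ha => ha.1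
    rw [hk] at h3 ⊢
    have : k < 2 := (Nat.pow_lt_pow_iff_right one_lt_two).1 (not_le.1 h3)
    interval_cases k <;> simp
  have h3 : Nat.card (B.map δ) ≤ 2 := by
    refine (card_le_of_le (K := zpowers (-1)) ?_).trans ?_
    · rintro _ ⟨b, hb, rfl⟩
      have h3 : ((δ b : (ZMod p)ˣ) : ZMod p) ^ 2 = 1 := by
        rw [← Units.val_pow_eq_pow_val, ← map_pow, hA'.2 b hb, map_one, Units.val_one]
      rcases sq_eq_one_iff.1 h3 with h4 | h4
      · rw [Units.val_eq_one.1 h4]; exact one_mem _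
      · rw [show δ b = -1 from Units.ext h4]; exact mem_zpowers _
    · rw [Nat.card_zpowers]
      exact orderOf_le_of_pow_eq_one two_pos (by simp)
  rw [← H53.card_inf_mul_relIndex δ.ker B, relIndex_ker]
  exact Nat.mul_le_mul h1 h3

theorem four {W : Type*} [Group W] [Finite W] (h2 : p ≠ 2) (hc : IsMulCommutative W)
    (he : ∀ w : W, w ^ p = 1) (hW : Nat.card W ≤ p ^ 2) {A : Subgroup (MulAut W)}
    (hA : IsElementaryAbelian 2 A) :
    Nat.card A ≤ 4 ∧ (Nat.card A ≤ 2 ∨ ∃ φ ∈ A, ∀ w, φ w = w⁻¹) := by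
  refine ⟨four_aux h2 hc he hW hA, or_iff_not_imp_left.2 fun h1 => ?_⟩
  let ι : MulAut W := ⟨Equiv.inv W, fun a b => by
    change (a * b)⁻¹ = a⁻¹ * b⁻¹
    rw [mul_inv_rev, hc.1.1]⟩
  have h3 := four_aux h2 hc he hW (H53.elemAb_sup hA (H51.isEA_zpowers (x := ι)
    (MulEquiv.ext fun w => inv_inv w)) (fun φ _ => by
      rw [cz_eq, mem_centralizer_singleton_iff]
      exact MulEquiv.ext fun w => map_inv φ w))
  obtain ⟨k, hk⟩ := (H53.isPGroup_of_elemAb hA).exists_card_eq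
  have h4 : 4 ≤ Nat.card A := by
    rw [hk] at h1 ⊢
    exact Nat.pow_le_pow_right two_pos ((Nat.pow_lt_pow_iff_right (n := 1) one_lt_two).1 (not_le.1 h1))
  exact ⟨ι, (eq_of_le_of_card_ge le_sup_left (h3.trans h4)).ge (mem_sup_right (mem_zpowers ι)),
    fun _ => rfl⟩

section XD
variable {T X Q F : Subgroup G}

omit [Finite G] in
theorem xd_p_le (h : XD p T X Q F) {Y Z : Subgroup G} (h1 : Q ≤ Y) (h2 : Y ≤ Z) (h3 : Z ≤ X)
    (h4 : ¬ Z ≤ Y) : p ≤ Y.relIndex Z := by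
  have h5 : Q.relIndex X ∣ p ^ 3 := by
    rcases h.sz with ⟨h5, -⟩ | ⟨h5, -⟩ <;> rw [h5]
    exact pow_dvd_pow p (by norm_num)
  have h6 : Y.relIndex Z ∣ p ^ 3 := ((Dvd.intro_left _ (relIndex_mul_relIndex Q Y Z h1 h2)).trans
    (Dvd.intro _ (relIndex_mul_relIndex Q Z X (h1.trans h2) h3))).trans h5
  obtain ⟨k, -, hk⟩ := (Nat.dvd_prime_pow hp.out).1 h6
  rw [hk]
  refine Nat.le_self_pow (fun h' => h4 (relIndex_eq_one.1 ?_)) p
  rw [hk, h', pow_zero]

theorem xd_idx (h : XD p T X Q F) : F.relIndex X = p ^ 2 ∧ Q.relIndex F ≤ p := by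
  obtain ⟨x, hx, hn⟩ := h.exists_not_mem
  have hle : F ⊔ zpowers x ≤ X := sup_le h.FX (zpowers_le.2 hx)
  have h1 := xd_p_le h h.QF le_sup_left hle fun h' => hn (h' (mem_sup_right (mem_zpowers x)))
  have h2 := xd_p_le h (h.QF.trans le_sup_left) hle le_rfl (h.nc x hx)
  have h3 : p ^ 2 ≤ F.relIndex X := by
    rw [← relIndex_mul_relIndex F _ X le_sup_left hle, pow_two]
    exact Nat.mul_le_mul h1 h2
  have h4 := relIndex_mul_relIndex Q F X h.QF h.FX
  have h5 := H53.relIndex_pos' Q F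
  have h6 := hp.out.pos
  rcases h.sz with ⟨h7, -⟩ | ⟨h7, h8⟩
  · rw [h7] at h4
    exact ⟨by nlinarith, by nlinarith⟩
  · have h9 := xd_p_le h le_rfl h.QF h.FX fun h' => h8 (h.comm.trans h')
    rw [h7] at h4
    refine ⟨le_antisymm (Nat.le_of_mul_le_mul_left (c := _) ?_ h6) h3,
      Nat.le_of_mul_le_mul_right (c := p ^ 2) ?_ (by positivity)⟩
    · calc p * F.relIndex X ≤ Q.relIndex F * F.relIndex X := Nat.mul_le_mul_right _ h9
        _ = p * p ^ 2 := by rw [h4]; ring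
    · calc Q.relIndex F * p ^ 2 ≤ Q.relIndex F * F.relIndex X := Nat.mul_le_mul_left _ h3
        _ = p * p ^ 2 := by rw [h4]; ring

theorem xd_between (h : XD p T X Q F) {Y : Subgroup G} (h1 : Q ≤ Y) (h2 : Y ≤ F) :
    Y ≤ Q ∨ F ≤ Y := by
  by_contra! h'
  have h3 := Nat.mul_le_mul (xd_p_le h le_rfl h1 (h2.trans h.FX) h'.1) (xd_p_le h h1 h2 h.FX h'.2)
  rw [relIndex_mul_relIndex Q Y F h1 h2] at h3
  have := (xd_idx h).2
  have := hp.out.one_lt
  nlinarith

theorem xd_bur' [X.Normal] [Q.Normal] [F.Normal] (h : XD p T X Q F) {E : Subgroup G}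
    (hE : ⁅X, E⁆ ≤ F) : ⁅X, resOf p E⁆ ≤ Q := by
  by_cases hF : F ≤ Q
  · exact (commutator_mono le_rfl (resOf_le p E)).trans (hE.trans hF)
  have h1 : ⁅F, X⁆ ≤ Q := by
    rcases xd_between h (le_sup_right : Q ≤ ⁅F, X⁆ ⊔ Q)
      (sup_le (commutator_le_left _ _) h.QF) with h1 | h1
    · exact le_sup_left.trans h1
    · exfalso
      set π := QuotientGroup.mk' Q
      have h2 : IsPGroup p (X.map π) := pquot_iff_isPGroup_map_mk'.1 h.pm
      haveI : (F.map π).Normal := Normal.map inferInstance _ (QuotientGroup.mk'_surjective _)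
      have h3 := H4.commutator_lt_of_isPGroup h2 (h2.to_le (map_mono h.FX)) le_normalizer_of_normal
        fun h' => hF (((Subgroup.map_eq_bot_iff _).1 h').trans (QuotientGroup.ker_mk' Q).le)
      refine h3.not_ge ((map_mono h1).trans ?_)
      rw [Subgroup.map_sup, map_commutator,
        (Subgroup.map_eq_bot_iff _).2 (QuotientGroup.ker_mk' Q).ge, sup_bot_eq]
  have h2 : F ≤ ⁅X, X⁆ ⊔ Q := (xd_between h (le_sup_right : Q ≤ ⁅X, X⁆ ⊔ Q)
    (sup_le h.comm h.QF)).resolve_left fun h' => by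
      rcases h.sz with ⟨h2, -⟩ | ⟨-, h2⟩
      · have h3 := relIndex_mul_relIndex Q F X h.QF h.FX
        have h4 := xd_p_le h le_rfl h.QF h.FX hF
        have := hp.out.one_lt
        rw [h2, (xd_idx h).1] at h3
        nlinarith
      · exact h2 (le_sup_left.trans h')
  have h3 : ⁅⁅X, E⁆, X⁆ ≤ Q := (commutator_mono hE le_rfl).trans h1
  have h4 : ⁅⁅X, X⁆, E⁆ ≤ Q := commutator_commutator_le_of_rotate h3
    (by rwa [Subgroup.commutator_comm E X])
  exact commutator_resOf_le_of_quadratic (PQuot.mono h.pm le_rfl (commutator_le_left _ _))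
    ((commutator_mono (hE.trans h2) le_rfl).trans (sup_commutator_le le_normalizer_of_normal
      le_normalizer_of_normal h4 (commutator_le_left _ _)))

theorem xd_bur (h : XD p T X Q F) {M E : Subgroup G} (hX : X ≤ M) (hT : T ≤ M) (hEM : E ≤ M)
    (h1 : M ≤ normalizer (X : Set G)) (h2 : M ≤ normalizer (Q : Set G))
    (h3 : M ≤ normalizer (F : Set G)) (hE : ⁅X, E⁆ ≤ F) : ⁅X, resOf p E⁆ ≤ Q := by
  haveI := (normal_subgroupOf_iff_le_normalizer hX).2 h1
  haveI := (normal_subgroupOf_iff_le_normalizer ((h.QF.trans h.FX).trans hX)).2 h2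
  haveI := (normal_subgroupOf_iff_le_normalizer (h.FX.trans hX)).2 h3
  have h4 := map_mono (f := M.subtype) (xd_bur' (h.subgroupOf hX hT) (E := E.subgroupOf M) (by
    rw [H83.commutator_subgroupOf hX hEM]; exact comap_mono hE))
  rw [map_commutator, map_subgroupOf_eq_of_le hX, resOf_subgroupOf_map hEM] at h4
  exact h4.trans (map_comap_le _ _)

theorem xd_fpf (h : XD p T X Q F) {W : Subgroup G} (hW : IsElementaryAbelian 2 W)
    (hn : X ≤ normalizer (W : Set G)) (hQ : Q ≤ centralizer (W : Set G)) :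
    ⁅W, X⁆ ⊓ centralizer (X : Set G) = ⊥ := by
  haveI := hW.1
  obtain ⟨P, hP⟩ := exists_isSyl p X
  have h1 := hP.sup_eq_of_pquot (h.QF.trans h.FX) h.XQ h.pm
  have hPW := hP.le.trans hn
  have h2 : ⁅W, Q ⊔ P⁆ ≤ ⁅W, P⁆ := commutator_sup_le (le_normalizer_of_cent
    (hQ.trans (centralizer_anti (commutator_le_left_of_le_normalizer hPW))))
    (le_normalizer_commutator hPW le_normalizer)
    ((commutator_eq_bot_iff_le_centralizer'.2 hQ).le.trans bot_le) le_rfl
  rw [h1] at h2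
  obtain ⟨n, hn⟩ := (H53.isPGroup_of_elemAb hW).exists_card_eq
  obtain ⟨m, hm⟩ := hP.isPGroup.exists_card_eq
  refine le_bot_iff.1 ((le_inf (inf_le_right.trans (centralizer_anti hP.le))
    (inf_le_left.trans h2)).trans (H4.centralizer_inf_commutator_eq_bot hPW ?_).le)
  rw [hn, hm]
  exact Nat.Coprime.pow _ _ ((Nat.coprime_primes hp.out Nat.prime_two).2 h.odd)

theorem endgame {V B : Subgroup G} [V.Normal] [X.Normal] [F.Normal] (h : XD p T X Q F)
    (hV : IsElementaryAbelian 2 V) (hQ : Q ≤ centralizer (V : Set G))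
    (hX : ¬ X ≤ centralizer (V : Set G)) (h0 : V ⊓ centralizer (X : Set G) = ⊥)
    (hB : InducesElemAbelianTwoGroupOn B V)
    (hker : ∀ b ∈ B, (∀ x ∈ X, ⁅x, b⁆ ∈ F) → b ∈ centralizer (V : Set G))
    (hc : (centralizer (B : Set G)).relIndex V ≤ (centralizer (V : Set G)).relIndex B ^ 2)
    (h5 : 5 ≤ p) : p = 5 ∧ ∀ m : G, ∀ x ∈ X, ⁅x, (m * m) ^ (p - 1)⁆ ∈ F := by
  have hXC : X ⊓ centralizer (V : Set G) ≤ F := (h.le_or' _).resolve_left hX
  have hcX : ∀ x ∈ X, ∀ g : G, ⁅x, g⁆ ∈ X := fun x hx g =>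
    commutator_le_left X ⊤ (commutator_mem_commutator hx (mem_top g))
  set α := H4.sectionAct (A := B) (K := X) (M := F) le_normalizer_of_normal le_normalizer_of_normal
  have hα : α.ker = (centralizer (V : Set G)).subgroupOf B := by
    ext b
    rw [H4.mem_ker_sectionAct]
    exact ⟨hker b b.2, fun hb x hx => hXC ⟨hcX x hx b, commutator_le_right ⊤ _
      (commutator_mem_commutator (mem_top x) hb)⟩⟩
  obtain ⟨h1, h2⟩ := four (W := X ⧸ F.subgroupOf X) (A := α.range) h.odd ⟨⟨fun a b => by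
      obtain ⟨a, rfl⟩ := QuotientGroup.mk'_surjective _ a
      obtain ⟨b, rfl⟩ := QuotientGroup.mk'_surjective _ b
      rw [← commutatorElement_eq_one_iff_mul_comm, ← map_commutatorElement]
      exact (QuotientGroup.eq_one_iff _).2 (h.comm (commutator_mem_commutator a.2 b.2))⟩⟩
    (fun a => by
      obtain ⟨a, rfl⟩ := QuotientGroup.mk'_surjective _ a
      rw [← map_pow]
      exact (QuotientGroup.eq_one_iff _).2 (h.pow a a.2))
    (xd_idx h).1.le (H51.isEA_iff.2 ⟨by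
      rintro _ ⟨a, rfl⟩ _ ⟨b, rfl⟩
      rw [← commutatorElement_eq_one_iff_mul_comm, ← map_commutatorElement, ← MonoidHom.mem_ker, hα]
      exact hB.2.2 a a.2 b b.2, by
      rintro _ ⟨a, rfl⟩
      rw [← map_pow, ← MonoidHom.mem_ker, hα]
      exact hB.2.1 a a.2⟩)
  rw [← index_ker, hα] at h1 h2
  change (centralizer (V : Set G)).relIndex B ≤ 4 at h1
  change (centralizer (V : Set G)).relIndex B ≤ 2 ∨ _ at h2
  have Tr := H53.transp_holomorph V
  have hfin : Finite (V ⋊[MonoidHom.id (MulAut V)] MulAut V) := H4.Ext.finite_semidirect _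
  generalize (SemidirectProduct.inl : V →* V ⋊[MonoidHom.id (MulAut V)] MulAut V) = ι at Tr
  generalize (SemidirectProduct.inr.comp MulAut.conjNormal :
    G →* V ⋊[MonoidHom.id (MulAut V)] MulAut V) = f at Tr
  have hk := Tr.ker_eq
  have hV' := H53.Transp.elemAb_range (ι := ι) hV
  have hnV : ∀ g, f g ∈ normalizer (ι.range : Set _) := fun g =>
    Tr.le_normalizer ⊤ (mem_map_of_mem f (mem_top g))
  have hnX : ∀ g, f g ∈ normalizer ((X.map f : Subgroup _) : Set _) := fun g =>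
    le_normalizer_map f (mem_map_of_mem f (le_normalizer_of_normal (mem_top g)))
  have hsq : ∀ b ∈ B, f b * f b = 1 := fun b hb => by
    rw [← map_mul, ← pow_two]; exact Tr.ker _ (hB.2.1 b hb)
  have hidx : ∀ b ∈ B, (centralizer ((zpowers (f b) : Subgroup _) : Set _)).relIndex ι.range ≤
      (centralizer (V : Set G)).relIndex B ^ 2 := fun b hb => by
    refine (H53.relIndex_anti_left (centralizer_anti (zpowers_le.2 (mem_map_of_mem f hb))) _).trans
      (le_trans (le_of_eq ?_) hc)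
    have e1 := H53.card_inf_mul_relIndex (centralizer ((B.map f : Subgroup _) : Set _)) ι.range
    have e2 := H53.card_inf_mul_relIndex (centralizer (B : Set G)) V
    rw [inf_comm, Tr.card_inf_centralizer, ← Nat.card_congr (MonoidHom.ofInjective Tr.inj).toEquiv,
      ← e2, inf_comm] at e1
    exact Nat.eq_of_mul_eq_mul_left Nat.card_pos e1
  obtain ⟨b, hb, hb'⟩ := SetLike.not_le_iff_exists.1 hB.1
  obtain ⟨y, hy, hy'⟩ : ∃ y ∈ X, ⁅y, b⁆ ∉ F := by
    by_contra! h'
    exact hb' (hker b hb h')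
  have hi : f b * f ⁅y, b⁆ * (f b)⁻¹ = (f ⁅y, b⁆)⁻¹ := by
    rw [map_commutatorElement]; exact inv_comm (hsq b hb) _
  by_cases hF : F ≤ centralizer (V : Set G)
  · have hE : PT p ι.range (X.map f) := by
      refine ⟨hV', H51.isEA_iff.2 ⟨?_, ?_⟩, ?_, Tr.le_normalizer X, ?_, h5⟩
      · rintro _ ⟨a, ha, rfl⟩ _ ⟨c, hc, rfl⟩
        rw [← commutatorElement_eq_one_iff_mul_comm, ← map_commutatorElement]
        exact Tr.ker _ (hF (h.comm (commutator_mem_commutator ha hc)))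
      · rintro _ ⟨a, ha, rfl⟩
        rw [← map_pow]; exact Tr.ker _ (hF (h.pow a ha))
      · rw [← relIndex_ker, hk, ← inf_relIndex_left, le_antisymm hXC (le_inf h.FX hF), (xd_idx h).1]
      · rw [← card_eq_one, Tr.card_inf_centralizer, h0, card_bot]
    suffices key : p = 5 ∧ ∀ m : V ⋊[MonoidHom.id (MulAut V)] MulAut V,
        m ∈ normalizer (ι.range : Set _) → m ∈ normalizer ((X.map f : Subgroup _) : Set _) →
        (m * m) ^ (p - 1) ∈ centralizer ((X.map f : Subgroup _) : Set _) by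
      refine ⟨key.1, fun m x hx => hXC ⟨hcX x hx _, hk.le (MonoidHom.mem_ker.2 ?_)⟩⟩
      rw [map_commutatorElement, map_pow, map_mul, commutatorElement_eq_one_iff_mul_comm]
      exact key.2 (f m) (hnV m) (hnX m) _ (mem_map_of_mem f hx)
    rcases h2 with h2 | ⟨_, ⟨c, rfl⟩, h2⟩
    · exact hE.beta (Tr.faithful X) (hsq b hb) (hnV b) (hnX b) (mem_map_of_mem f (hcX y hy b))
        (fun h' => hy' (hXC ⟨hcX y hy b, hk.le h'⟩)) hi
        ((hidx b hb).trans (Nat.pow_le_pow_left h2 2))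
    · refine hE.alpha (Tr.faithful X) (hsq c c.2) (hnV c) ?_
        ((hidx c c.2).trans (Nat.pow_le_pow_left h1 2))
      rintro _ ⟨x, hx, rfl⟩
      have h3 := h2 ((⟨x, hx⟩ : X) : X ⧸ F.subgroupOf X)
      rw [H4.sectionAct_mk, eq_comm, ← QuotientGroup.mk_inv, QuotientGroup.eq, inv_inv] at h3
      have h4 := Tr.ker _ (hF h3)
      simp only [Subgroup.coe_subtype, Subgroup.coe_mul, map_mul, map_inv] at h4
      exact eq_inv_of_mul_eq_one_right h4
  · exfalso
    have h3 : X ⊓ centralizer (V : Set G) ≤ Q :=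
      (xd_between h (le_inf (h.QF.trans h.FX) hQ) hXC).resolve_right
        fun h' => hF (h'.trans inf_le_right)
    have h4 := h.map f (hk ▸ h3)
    rw [(Subgroup.map_eq_bot_iff Q).2 (hQ.trans hk.ge)] at h4
    refine extra h4 ?_ hV' (Tr.le_normalizer X) (Tr.faithful X) h5 (hsq b hb)
      (mem_map_of_mem f (hcX y hy b)) (fun h' => hy' ?_) hi
      ((hidx b hb).trans (Nat.pow_le_pow_left h1 2))
    · rw [← relIndex_ker, hk, ← inf_relIndex_left, le_antisymm
        ((inf_le_inf_right _ h.FX).trans h3) (le_inf h.QF hQ)]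
      exact le_antisymm (xd_idx h).2 (xd_p_le h le_rfl h.QF h.FX fun h' => hF (h'.trans hQ))
    · exact le_of_map_le' f h.FX (hk ▸ hXC) (zpowers_le.2 (hcX y hy b))
        (by rw [MonoidHom.map_zpowers]; exact zpowers_le.2 h') (mem_zpowers _)

end XD

end Cfsg.Agent.H93.QR
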