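import Mathlib
import Cfsg.Agent.H93.QrcEnd2
import Cfsg.Agent.H81.QTL

/-!
Faithful solvable uniqueness groups in a simple QTKE-group.
-/

set_option autoImplicit false

namespace Cfsg.Agent.H93.QR

open Subgroup Cfsg.Agent.H85 Cfsg.Agent.H81.QT Cfsg.Agent.H93.QT
open scoped commutatorElement

universe u

section
variable {G : Type*} [Group G]

theorem mem_of_coprime_pow {N : Subgroup G} {g : G} {a b : ℕ} (hc : a.Coprime b) (ha : g ^ a ∈ N)
    (hb : g ^ b ∈ N) : g ∈ N := by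
  have h1 := Nat.gcd_eq_gcd_ab a b
  rw [hc, Nat.cast_one] at h1
  rw [← zpow_one g, h1, zpow_add, zpow_mul, zpow_mul, zpow_natCast, zpow_natCast]
  exact mul_mem (zpow_mem ha _) (zpow_mem hb _)

theorem mul_pow_mul_inv_mem {N : Subgroup G} {c m : G} (hc : c ∈ N)
    (hm : m ∈ normalizer (N : Set G)) (n : ℕ) : (c * m) ^ n * (m ^ n)⁻¹ ∈ N := by
  induction n with
  | zero => simp
  | succ n ih =>
    have : (c * m) ^ (n + 1) * (m ^ (n + 1))⁻¹ =
        (c * m) ^ n * (m ^ n)⁻¹ * (m ^ n * c * (m ^ n)⁻¹) := by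
      rw [pow_succ, pow_succ]; group
    rw [this]
    exact mul_mem ih ((mem_normalizer_iff.1 (pow_mem hm n) c).1 hc)

theorem induces_of_map {G' : Type*} [Group G'] {f : G →* G'} (hf : Function.Injective f)
    {B V : Subgroup G} (h : InducesElemAbelianTwoGroupOn (B.map f) (V.map f)) :
    InducesElemAbelianTwoGroupOn B V := by
  refine ⟨fun h' => h.1 ((H53.map_le_centralizer_map_iff hf).2 h'), fun b hb => ?_,
    fun b hb b' hb' => ?_⟩ <;> rw [← H53.comap_centralizer_map hf, mem_comap]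
  · rw [map_pow]; exact h.2.1 _ (mem_map_of_mem f hb)
  · simpa only [map_mul, map_inv] using h.2.2 _ (mem_map_of_mem f hb) _ (mem_map_of_mem f hb')

end

theorem s1852 {G : Type u} [Group G] [Finite G] [IsSimpleGroup G] (hk : KF.{u}) (hmp : MPStmt2.{u})
    (hG : ¬ IsMulCommutative G) (hQ : IsQTKE G) (T : Sylow 2 G) (X : Subgroup G)
    (hT : ∃ M₁ M₂ : Subgroup G, M₁ ∈ maxTwoLocalsContaining (T : Subgroup G) ∧
      M₂ ∈ maxTwoLocalsContaining (T : Subgroup G) ∧ M₁ ≠ M₂)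
    (hX : X ∈ XiStar (T : Subgroup G)) (hXf : X ∈ calXf G) :
    (∀ p : ℕ, p.Prime → p ∣ Nat.card ↥X → p = 2 ∨ p = 3) ∨
    (IsPGroup 5 (↥X ⧸ pCore 2 ↥X) ∧
      ∀ r : ℕ, r.Prime → r ≠ 2 → r ≠ 5 → ∀ g ∈ normalizer (X : Set G),
        (∀ x ∈ X, g ^ r * x * (g ^ r)⁻¹ * x⁻¹ ∈ pCoreTwoOf X) →
          ∀ x ∈ X, g * x * g⁻¹ * x⁻¹ ∈ pCoreTwoOf X) := by
  obtain ⟨p, hp, h⟩ := xd_of_Xi hX.1
  haveI : Fact p.Prime := ⟨hp⟩
  set Q := pCoreOf 2 X with hQdef
  set F := twoPhiCore X with hFdef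
  have hQX : Q ≤ X := h.QF.trans h.FX
  obtain ⟨e, he⟩ : ∃ e, Q.relIndex X = p ^ e := by
    rcases h.sz with ⟨h1, -⟩ | ⟨h1, -⟩ <;> exact ⟨_, h1⟩
  by_cases h3 : p = 3
  · refine Or.inl fun q hq hd => ?_
    obtain ⟨k, hk⟩ := h.Q2.exists_card_eq
    rw [← H53.card_mul_relIndex hQX, hk, he, h3] at hd
    exact ((Nat.Prime.dvd_mul hq).1 hd).imp (fun h' => (Nat.prime_dvd_prime_iff_eq hq
      Nat.prime_two).1 (hq.dvd_of_dvd_pow h')) fun h' =>
        (Nat.prime_dvd_prime_iff_eq hq Nat.prime_three).1 (hq.dvd_of_dvd_pow h')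
  right
  have h5 : 5 ≤ p := hp.five_le_of_ne_two_of_ne_three h.odd h3
  set M := normalizer (X : Set G) with hMdef
  have hM := s1822 hk hG hQ T X hX
  have hM' : IsMaximalTwoLocal M := (show M ∈ maxTwoLocalsContaining (X ⊔ (T : Subgroup G)) from
    hM ▸ rfl).1
  have hXM : X ≤ M := le_normalizer
  have hTM : (T : Subgroup G) ≤ M := h.TX
  obtain ⟨H, hH⟩ : ∃ H, H ∈ calHMin (T : Subgroup G) M := by
    refine exists_min_card _ ?_
    obtain ⟨M₁, M₂, h1, h2, h12⟩ := hT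
    have key : ∀ N ∈ maxTwoLocalsContaining (T : Subgroup G), N ≠ M →
        N ∈ calHOverNotLE (T : Subgroup G) M := fun N hN hne =>
      ⟨⟨mem_calH_of_twoLocal hN.1.1, hN.2⟩, fun h' => hne (hN.1.2 M hM'.1 h').symm⟩
    by_cases e : M₁ = M
    · exact ⟨M₂, key _ h2 fun e' => h12 (e.trans e'.symm)⟩
    · exact ⟨M₁, key _ h1 e⟩
  have hU := uniqMax_of_calHMin (isSyl_of_sylow_le T hH.1.1.2) hTM hH
  have hMQ : M ≤ normalizer (Q : Set G) := normalizer_le_normalizer_pCoreOf 2 X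
  have hMF : M ≤ normalizer (F : Set G) := norm_twoPhiCore X
  set D := H52.cmod Q X with hDdef
  have hMD : M ≤ normalizer (D : Set G) :=
    (le_inf hMQ le_rfl).trans (H52.normalizer_inf_le_normalizer_cmod _ _)
  set E := M ⊓ H52.cmod F X with hEdef
  have hME : M ≤ normalizer (E : Set G) := le_normalizer_inf le_normalizer
    ((le_inf hMF le_rfl).trans (H52.normalizer_inf_le_normalizer_cmod _ _))
  have hED : resOf p E ≤ D := H52.le_cmod_iff.2 ⟨((resOf_le p E).trans inf_le_left).trans hMQ,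
    xd_bur h hXM hTM inf_le_left le_rfl hMQ hMF (H52.le_cmod_iff.1 inf_le_right).2⟩
  have hDE : M ⊓ D ≤ E := le_inf inf_le_left (H52.le_cmod_iff.2
    ⟨inf_le_left.trans hMF, (H52.le_cmod_iff.1 inf_le_right).2.trans h.QF⟩)
  set R := (T : Subgroup G) ⊓ D with hRdef
  set M₀ := M ⊓ normalizer (R : Set G) with hM₀def
  have hQR : Q ≤ R := le_inf ((isSyl_top T).ge_of_le_normalizer h.Q2 le_top (hTM.trans hMQ))
    (H52.le_cmod_iff.2 ⟨le_normalizer, commutator_le_right_of_le_normalizer h.XQ⟩)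
  have hXM₀ : X ≤ M₀ :=
    le_inf hXM (norm_of_comm_le ((H52.le_cmod_iff.1 (inf_le_right : R ≤ D)).2.trans hQR))
  have hTM₀ : (T : Subgroup G) ≤ M₀ := le_inf hTM (le_normalizer_inf le_normalizer (hTM.trans hMD))
  have hR2 : IsPGroup 2 R := T.isPGroup'.to_inf_left
  have hO : pCoreOf 2 M₀ = R := by
    have h1 : pCoreOf 2 M₀ ≤ M := (pCoreOf_le 2 M₀).trans inf_le_left
    exact le_antisymm (le_inf (isSyl_of_sylow_le T hTM₀).pCoreOf_le (H52.le_cmod_iff.2
      ⟨h1.trans hMQ, (H52.commutator_le_inf_of_normalizer (hXM₀.trans (le_normalizer_pCoreOf 2 M₀))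
        h1).trans (inf_pCoreOf_le hXM₀)⟩)) (le_pCoreOf (inf_le_left.trans hTM₀) hR2 inf_le_right)
  have hMW : M ≤ normalizer ((omegaOneCenter 2 Q : Subgroup G) : Set G) :=
    hMQ.trans (normalizer_le_normalizer_omegaOneCenter 2 Q)
  set U := ⁅omegaOneCenter 2 Q, X⁆ with hUdef
  have hU0 : U ≠ ⊥ := hXf.2
  have hMU : M ≤ normalizer (U : Set G) := le_normalizer_commutator hMW le_rfl
  have hUW : U ≤ omegaOneCenter 2 Q := commutator_le_left_of_le_normalizer (hXM.trans hMW)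
  have hUe := H53.IsElementaryAbelian.of_le' (elemAb_omegaOneCenter 2 Q) hUW
  have hUX : U ⊓ centralizer (X : Set G) = ⊥ :=
    xd_fpf h (elemAb_omegaOneCenter 2 Q) (hXM.trans hMW) (le_centralizer_omegaOneCenter 2 Q)
  set V := U ⊓ centralizer (R : Set G) with hVdef
  have hV0 : V ≠ ⊥ := H83.inf_centralizer_ne_bot (H53.isPGroup_of_elemAb hUe) hR2
    ((inf_le_left.trans hTM).trans hMU) hU0
  have hV := H53.IsElementaryAbelian.of_le' hUe (inf_le_left : V ≤ U)
  have hnV : M₀ ≤ normalizer (V : Set G) :=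
    le_normalizer_inf (inf_le_left.trans hMU) (le_normalizer_centralizer inf_le_right)
  have hVM₀ : V ≤ M₀ := ((inf_le_left.trans hUW).trans (omegaOneCenter_le 2 Q)).trans (hQX.trans hXM₀)
  have hVX : V ⊓ centralizer (X : Set G) = ⊥ :=
    le_bot_iff.1 ((inf_le_inf_right _ inf_le_left).trans hUX.le)
  have hXV : ¬ X ≤ centralizer (V : Set G) := fun h' =>
    hV0 (hVX ▸ (inf_eq_left.2 (le_centralizer_comm h')).symm)
  have hXC : X ⊓ centralizer (V : Set G) ≤ F := (h.le_or (le_normalizer_centralizer (hXM₀.trans hnV))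
    (le_normalizer_centralizer (hTM₀.trans hnV))).resolve_left hXV
  have hRV : R ≤ centralizer (V : Set G) := le_centralizer_comm inf_le_right
  have key : ∀ t ∈ (T : Subgroup G), (∀ x ∈ X, ⁅x, t⁆ ∈ F) → t ∈ R := fun t ht h' => by
    obtain ⟨k, hk⟩ := T.isPGroup' ⟨t, ht⟩
    exact ⟨ht, hED (mem_resOf ⟨hTM ht, hMF (hTM ht), h'⟩ (Nat.Coprime.coprime_dvd_left
      (orderOf_dvd_of_pow_eq_one (congrArg Subtype.val hk))
      (((Nat.coprime_primes Nat.prime_two hp).2 h.odd.symm).pow_left k)))⟩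
  have hTV : R = (T : Subgroup G) ⊓ centralizer (V : Set G) := by
    refine le_antisymm (le_inf inf_le_left hRV) fun t ht => key t ht.1 fun x hx => hXC ⟨?_, ?_⟩
    · exact commutator_le_left_of_le_normalizer hTM (commutator_mem_commutator hx ht.1)
    · exact commutator_le_right_of_le_normalizer (le_normalizer_centralizer (hXM₀.trans hnV))
        (commutator_mem_commutator hx ht.2)
  obtain ⟨B, hBT, hB, hc⟩ : ∃ B : Subgroup G, B ≤ T ∧ InducesElemAbelianTwoGroupOn B V ∧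
      (V ⊓ centralizer (B : Set G)).relIndex V ≤ (centralizer (V : Set G)).relIndex B ^ 2 := by
    rcases qrc hk.list hmp hG hQ T (D := H ⊓ M ⊓ D) hTM₀ hH.1.1 hU hV hVM₀ hnV (hO.trans hTV)
      inf_le_left (le_normalizer_inf le_normalizer (inf_le_right.trans hMD))
      (by rw [← inf_assoc, inf_eq_left.2 hU.le, ← hTV]) with
      ⟨R₀, h1, h2, h4⟩ | ⟨-, B, h1, h2, -, h4⟩ | ⟨B, h1, h2, -, h4⟩
    · obtain ⟨N, h6, h7⟩ := exists_maxTwoLocal (N := normalizer (R₀ : Set G))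
        ⟨R₀, (pCoreOf_isPGroup 2 M₀).to_le h2, h1, rfl⟩
      have h8 : N ∈ maxTwoLocalsContaining (X ⊔ (T : Subgroup G)) :=
        ⟨h6, ((sup_le hXM₀ hTM₀).trans (le_sup_left.trans h4)).trans h7⟩
      rw [hM] at h8
      exact absurd (((le_sup_right.trans h4).trans h7).trans h8.le) hH.1.2
    · exact ⟨B, h1, h2, h4⟩
    · exact ⟨B, h1, h2, h4⟩
  rw [inf_relIndex_left] at hc
  have hi := M₀.subtype_injective
  have em : ∀ {Y : Subgroup G}, Y ≤ M₀ → (Y.subgroupOf M₀).map M₀.subtype = Y :=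
    fun h' => map_subgroupOf_eq_of_le h'
  have hBM := hBT.trans hTM₀
  haveI := (normal_subgroupOf_iff_le_normalizer hVM₀).2 hnV
  haveI := (normal_subgroupOf_iff_le_normalizer hXM₀).2 inf_le_left
  haveI := (normal_subgroupOf_iff_le_normalizer (h.FX.trans hXM₀)).2 (inf_le_left.trans hMF)
  obtain ⟨rfl, h6⟩ := endgame (V := V.subgroupOf M₀) (B := B.subgroupOf M₀) (h.subgroupOf hXM₀ hTM₀)
    (elemAb_subgroupOf hV M₀)
    ((le_centralizer_subgroupOf_iff (hQX.trans hXM₀) hVM₀).2 (hQR.trans hRV))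
    (by rwa [le_centralizer_subgroupOf_iff hXM₀ hVM₀])
    (by
      rw [centralizer_subgroupOf hXM₀, eq_bot_iff]
      exact fun z hz => mem_bot.2 (Subtype.ext (mem_bot.1 (hVX.le hz))))
    (induces_of_map hi (by rwa [em hBM, em hVM₀]))
    (fun b hb h' => by
      rw [centralizer_subgroupOf hVM₀]
      exact hRV (key b (hBT hb) fun x hx => h' ⟨x, hXM₀ hx⟩ hx))
    (by rwa [← H53.relIndex_centralizer_map hi, ← H53.relIndex_centralizer_map hi, em hBM, em hVM₀])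
    h5
  refine ⟨IsPGroup.of_card (n := e) ?_, fun r hr h2 h5' g hg h7 x hx => ?_⟩
  · rw [← he, relIndex, pCoreOf_subgroupOf, index]
  have h8 : g ^ r ∈ D := ⟨hMQ (pow_mem hg r), fun y hy => by
    rw [← commutatorElement_inv]; exact inv_mem (h7 y hy)⟩
  have h9 := (isSyl_of_sylow_le T hTM).inf_of_le_normalizer (inf_le_left : M ⊓ D ≤ M)
    (le_normalizer_inf le_normalizer hMD)
  rw [← inf_assoc, inf_eq_left.2 hTM] at h9
  obtain ⟨c, hc', m, hm, rfl⟩ := (mem_sup_of_le_normalizer (inf_le_left.trans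
    (le_normalizer_inf le_normalizer hMD))).1 ((h9.frattini inf_le_left
      (le_normalizer_inf le_normalizer hMD)).ge hg)
  have h10 : m ^ 8 ∈ E := ⟨pow_mem hm.1 8, hMF (pow_mem hm.1 8), fun y hy => by
    have := h6 ⟨m, hm⟩ ⟨y, hXM₀ hy⟩ hy
    rwa [← pow_two, ← pow_mul] at this⟩
  have h11 : c * m ∈ E := mem_of_coprime_pow (a := 8) (b := r)
    (((Nat.coprime_primes Nat.prime_two hr).2 h2.symm).pow_left 3)
    ((mul_mem_cancel_right (inv_mem h10)).1 (mul_pow_mul_inv_mem (hDE hc') (hME hm.1) 8))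
    (hDE ⟨pow_mem hg r, h8⟩)
  obtain ⟨k, hk'⟩ := pquot_resOf (p := 5) E _ h11
  have h12 : c * m ∈ D := mem_of_coprime_pow
    (((Nat.coprime_primes hp hr).2 h5'.symm).pow_left k) (hED hk') h8
  have h13 := inv_mem (h12.2 x hx)
  rwa [commutatorElement_inv] at h13

end Cfsg.Agent.H93.QR
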