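import Cfsg.Agent.H35.RfQ
import Cfsg.Agent.H42.Code

/-! Project RF: assembly of the end of the cocode case. -/

set_option autoImplicit false

namespace Cfsg.Agent.H93.RfEndT

open Cfsg Subgroup Cfsg.Agent.H42 Cfsg.Agent.H18.Rf Cfsg.Agent.H35.RF
open Cfsg.Agent.H48 (IsWord)
open Cfsg.Agent.H49 (XS LX)
open scoped Pointwise symmDiff

universe u

theorem endT1 (kt : KitTStmt.{u}) (va : VaTStmt.{u}) (vb : VbTStmt.{u}) (vc : VcTStmt.{u})
    (vd : VdTStmt.{u}) (ta : TaStmt.{u}) (tb : TbStmt.{u}) (tc : TcStmt.{u}) (td : TdStmt.{u})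
    (te : TeStmt.{u}) (tf : TfStmt.{u}) (idd : IdStmt.{u}) (cq : CqStmt.{u}) (xq1 : Xq1Stmt.{u})
    (xqa : XqaStmt.{u}) (xqb : XqbStmt.{u}) (xqc : XqcStmt.{u}) (xc : XcStmt.{u})
    (x4 : X4Stmt.{u}) (xe : XeStmt.{u}) (sv : SvStmt.{u}) (xm : XmStmt.{u}) (ej : EndJStmt.{u})
    (ef : EndFStmt.{u}) : EndT1Stmt.{u} := by
  intro G _ _ V ρ ψ st tod wc hs Q W' ω' lc lt lx o2
  obtain ⟨-, -, -, -, -, ω, tz⟩ := kt G V ρ ψ st tod
  have hva := va G V ρ ψ ω tz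
  have hvc : VC V (ψ t0) (WT ψ) (RT V ρ) :=
    { toVa := hva, toVb := vb G V ρ ψ ω tz, toVc := vc G V ρ ψ ω tz, toVd := vd G V ρ ψ ω tz }
  have hta := ta G V ρ ψ ω tz
  have hte := te G V ρ ψ ω tz
  have ql := idd G V _ _ _ Q W' ω hvc hta hte lc lt.cQ lt.cW
  have co : Co V (ψ t0) (WT ψ) (RT V ρ) ω Q :=
    ⟨hvc, hta, tb G V ρ ψ ω tz, tc G V ρ ψ ω tz, td G V ρ ψ ω tz, hte, tf G V ρ ψ ω tz, ql, wc, lx,
      lt.cQ, o2⟩
  have hq := cq G V _ _ _ ω Q co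
  obtain ⟨X, A, _, _, _, _, π, α, φ, s, qt, xq⟩ := xq1 G _ Q lx lt.cQ hq.kerA
  let w : C1 (ψ t0) := ⟨ω, hta.om.2⟩
  have co' : Co V (ψ t0) (WT ψ) (RT V ρ) (w : G) Q := co
  obtain ⟨T, hb⟩ := xqb G X A V _ _ _ Q π α φ s w co' hq qt xq
  have xf : XF φ s (ia α (WT ψ)) (im π (MM V (ψ t0))) (im π V) T (π w) :=
    { toXFq := xq, toXFa := xqa G X A V _ _ _ Q π α φ s w co' hq qt xq, toXFb := hb,
      toXFc := xqc G X A V _ _ _ Q π α φ s w co' hq qt xq }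
  obtain ⟨L, xl⟩ := xc X A φ s _ _ _ T _ xf
  obtain ⟨S, _, _, θ, he⟩ := xe X A φ s _ _ _ T _ xf L xl (x4 X A φ s _ _ _ T _ xf L xl)
  rcases sv S he.simple he.nonab he.seven he.dvd with h | h
  · obtain ⟨χ, h1, h2⟩ := xm X S L _ θ he h
    exact Or.inl (ej G X A V _ _ _ Q π α φ s w co' hq qt xq χ h1 h2)
  · exact Or.inr (ef G X A V _ _ _ Q π α φ s w co' hq qt xq hs S L θ he h)

theorem card_t0 : t0.card = 4 := by
  unfold t0
  decide +kernel

theorem word_smul (g : M24) {c : Finset GolayPt} (h : IsWord c) : IsWord (g • c) :=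
  H48.IsWord.smul g.2 h

theorem word_smul_iff (g : M24) (c : Finset GolayPt) : IsWord (g • c) ↔ IsWord c :=
  ⟨fun h => by simpa using word_smul g⁻¹ h, word_smul g⟩

theorem st_conj {G : Type u} [Group G] {V : Subgroup G} {ρ : NN V →* M24} (st : St V ρ) (g : M24) :
    St V ((MulAut.conj g⁻¹).toMonoidHom.comp ρ) :=
  ⟨st.el, st.card, st.cen, (MulAut.conj g⁻¹).surjective.comp st.sur, fun n => by
    rw [← st.ker n]
    exact (MulAut.conj g⁻¹).map_eq_one_iff⟩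

theorem tod_conj {G : Type u} [Group G] {V : Subgroup G} {ρ : NN V →* M24}
    {ψ : Finset GolayPt → G} (h : Tod V ρ ψ) (g : M24) :
    Tod V ((MulAut.conj g⁻¹).toMonoidHom.comp ρ) (fun c => ψ (g • c)) := by
  have ev : ∀ (k : M24) (c : Finset GolayPt), Even c.card → Even (k • c).card := fun k c hc => by
    rwa [Finset.card_smul_finset]
  refine ⟨fun c d hc hd => ?_, fun c hc => h.mem _ (ev g c hc), fun v hv => ?_, fun c hc => ?_,
    fun n c hc => ?_⟩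
  · show ψ (g • symmDiff c d) = _
    rw [msmul_symmDiff]
    exact h.add _ _ (ev g c hc) (ev g d hd)
  · obtain ⟨c, hc, e⟩ := h.sur v hv
    exact ⟨g⁻¹ • c, ev _ c hc, by simpa using e⟩
  · rw [h.ker _ (ev g c hc)]
    exact word_smul_iff g c
  · rw [h.act n _ (ev g c hc)]
    simp [smul_smul, mul_assoc]

theorem endT0 (h : EndT1Stmt.{u}) : EndT0Stmt.{u} := by
  intro G _ _ V ρ ψ st tod wc hs t ht Q W ω lc lt lx _ o2
  obtain ⟨g, rfl⟩ := exists_smul_finset (s := t0) (t := t) (by rw [card_t0, ht])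
    (by rw [card_t0]; norm_num)
  exact h G V _ (fun c => ψ (g • c)) (st_conj st g) (tod_conj tod g) wc hs Q W ω lc lt lx o2

end Cfsg.Agent.H93.RfEndT
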